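import Mathlib
import Cfsg.Agent.Lib.Prod.Ito
import Cfsg.Agent.Lib.Prod.ItoNormal
import Cfsg.Agent.Lib.Char.Burnside
import Cfsg.Agent.Lib.PGroup.MaxNormal

/-!
# Products of an abelian and a nilpotent subgroup

A finite group that is the product of an abelian subgroup and a nilpotent subgroup has a proper
normal subgroup containing one of the factors, hence is solvable; when the nilpotent factor has
class at most two the derived length is bounded.
-/

set_option autoImplicit false

namespace Cfsg.Agent.Lib.Techniques.AbNil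

open Subgroup
open scoped commutatorElement Pointwise

universe u

section Nil

variable {T : Type u} [Group T] [Finite T] [Group.IsNilpotent T] {p : ℕ} [hp : Fact p.Prime]

theorem sylow_normal (P : Sylow p T) : (P : Subgroup T).Normal :=
  inferInstance

theorem pelt_of_mem {G : Type u} [Group G] [Finite G] (P : Sylow p G) {x : G}
    (hx : x ∈ (P : Subgroup G)) : ∃ k, orderOf x = p ^ k := by
  obtain ⟨k, hk⟩ := (IsPGroup.iff_orderOf.mp P.isPGroup') ⟨x, hx⟩
  exact ⟨k, by rwa [Subgroup.orderOf_mk] at hk⟩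

theorem mem_sylow_of_pelt (P : Sylow p T) {x : T} (hx : ∃ k, orderOf x = p ^ k) :
    x ∈ (P : Subgroup T) := by
  obtain ⟨k, hk⟩ := hx
  have h1 : IsPGroup p (zpowers x) := IsPGroup.iff_card.mpr ⟨k, by rw [Nat.card_zpowers, hk]⟩
  obtain ⟨Q, hQ⟩ := h1.exists_le_sylow
  haveI := sylow_normal P
  have : Q = P := by
    obtain ⟨g, rfl⟩ := MulAction.exists_smul_eq T P Q
    exact Sylow.smul_eq_of_normal
  rw [← this]
  exact hQ (mem_zpowers x)

theorem nil_decomp (b : T) : ∃ w t : T, b = w * t ∧ (∃ k, orderOf w = p ^ k) ∧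
    (∀ x : T, (∃ k, orderOf x = p ^ k) → Commute t x) := by
  have ho : orderOf b ≠ 0 := (orderOf_pos b).ne'
  obtain ⟨e, m, hm, hbm⟩ := Nat.exists_eq_pow_mul_and_not_dvd ho p hp.out.ne_one
  have hcop : Nat.Coprime (p ^ e) m :=
    Nat.Coprime.pow_left _ ((Nat.Prime.coprime_iff_not_dvd hp.out).mpr hm)
  have hg : ((p ^ e : ℕ) : ℤ) * Nat.gcdA (p ^ e) m + (m : ℤ) * Nat.gcdB (p ^ e) m = 1 := by
    have := Nat.gcd_eq_gcd_ab (p ^ e) m
    rw [hcop] at this
    simpa using this.symm
  refine ⟨b ^ ((m : ℤ) * Nat.gcdB (p ^ e) m), b ^ (((p ^ e : ℕ) : ℤ) * Nat.gcdA (p ^ e) m), ?_, ?_, ?_⟩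
  · rw [← zpow_add, add_comm, hg, zpow_one]
  · have h1 : (b ^ ((m : ℤ) * Nat.gcdB (p ^ e) m)) ^ (p ^ (e + 0)) = 1 := by
      rw [← zpow_natCast, ← zpow_mul, add_zero]
      have : (m : ℤ) * Nat.gcdB (p ^ e) m * ((p ^ e : ℕ) : ℤ) = ((orderOf b : ℕ) : ℤ) * Nat.gcdB (p ^ e) m := by
        rw [hbm]; push_cast; ring
      rw [this, zpow_mul, zpow_natCast, pow_orderOf_eq_one, one_zpow]
    obtain ⟨k, _, hk⟩ := (Nat.dvd_prime_pow hp.out).mp (orderOf_dvd_of_pow_eq_one h1)
    exact ⟨k, hk⟩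
  · intro x hx
    obtain ⟨k, hk⟩ := hx
    have h1 : IsPGroup p (zpowers x) := IsPGroup.iff_card.mpr ⟨k, by rw [Nat.card_zpowers, hk]⟩
    have h2 : (b ^ (((p ^ e : ℕ) : ℤ) * Nat.gcdA (p ^ e) m)) ^ m = 1 := by
      rw [← zpow_natCast, ← zpow_mul]
      have : ((p ^ e : ℕ) : ℤ) * Nat.gcdA (p ^ e) m * (m : ℤ) = ((orderOf b : ℕ) : ℤ) * Nat.gcdA (p ^ e) m := by
        rw [hbm]; push_cast; ring
      rw [this, zpow_mul, zpow_natCast, pow_orderOf_eq_one, one_zpow]
    have h3 : (orderOf (b ^ (((p ^ e : ℕ) : ℤ) * Nat.gcdA (p ^ e) m))).Coprime p :=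
      Nat.Coprime.coprime_dvd_left (orderOf_dvd_of_pow_eq_one h2)
        (Nat.Coprime.symm ((Nat.Prime.coprime_iff_not_dvd hp.out).mpr hm))
    exact (Cfsg.Agent.Lib.PGroup.commute_of_nilpotent_of_coprime h1 h3).symm

theorem central_of_sylow_central (P : Sylow p T) {w : T} (hw : w ∈ (P : Subgroup T))
    (hc : ∀ z ∈ (P : Subgroup T), Commute w z) (b : T) : Commute w b := by
  obtain ⟨w', t, rfl, hw', ht⟩ := nil_decomp (p := p) b
  exact (hc _ (mem_sylow_of_pelt P hw')).mul_right (ht w (pelt_of_mem P hw)).symm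

theorem exists_central_elt (P : Sylow p T) (hpd : p ∣ Nat.card T) :
    ∃ y ∈ (P : Subgroup T), y ≠ 1 ∧ ∀ b : T, Commute y b := by
  haveI : Nontrivial (P : Subgroup T) := by
    have := (Sylow.ne_bot_of_dvd_card P hpd)
    exact Subgroup.nontrivial_iff_ne_bot _ |>.mpr this
  haveI := P.isPGroup'.center_nontrivial
  obtain ⟨y, hy⟩ := exists_ne (1 : center (P : Subgroup T))
  refine ⟨y.1.1, y.1.2, ?_, ?_⟩
  · intro h
    apply hy
    ext
    simpa using h
  · apply central_of_sylow_central P y.1.2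
    intro z hz
    have := (Subgroup.mem_center_iff.mp y.2) ⟨z, hz⟩
    exact (congrArg Subtype.val this).symm

end Nil

section Crit

variable {G : Type u} [Group G]

/-- The setting: an abelian and a nilpotent subgroup with product the whole group. -/
structure Setup (A B : Subgroup G) : Prop where
  ab : ∀ x ∈ A, ∀ y ∈ A, x * y = y * x
  nil : Group.IsNilpotent B
  fac : ∀ g : G, ∃ a ∈ A, ∃ b ∈ B, g = a * b

theorem Setup.map {A B : Subgroup G} {H : Type u} [Group H] (hS : Setup A B) (f : G →* H)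
    (hf : Function.Surjective f) : Setup (A.map f) (B.map f) where
  ab := by
    rintro _ ⟨x, hx, rfl⟩ _ ⟨y, hy, rfl⟩
    rw [← map_mul, ← map_mul, hS.ab x hx y hy]
  nil := by
    haveI := hS.nil
    exact Group.nilpotent_of_surjective (f.subgroupMap B) (f.subgroupMap_surjective B)
  fac := by
    intro g
    obtain ⟨g, rfl⟩ := hf g
    obtain ⟨a, ha, b, hb, rfl⟩ := hS.fac g
    exact ⟨f a, ⟨a, ha, rfl⟩, f b, ⟨b, hb, rfl⟩, map_mul _ _ _⟩

theorem commutator_bot_of_comm (h : ∀ x y : G, x * y = y * x) : commutator G = ⊥ := by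
  rw [commutator_def, eq_bot_iff, Subgroup.commutator_le]
  intro g₁ _ g₂ _
  rw [Subgroup.mem_bot, commutatorElement_eq_one_iff_mul_comm]
  exact h _ _

theorem comm_of_commutator_bot (h : commutator G = ⊥) (x y : G) : x * y = y * x := by
  have : ⁅x, y⁆ ∈ commutator G := by
    rw [commutator_def]; exact Subgroup.commutator_mem_commutator trivial trivial
  rw [h, Subgroup.mem_bot, commutatorElement_eq_one_iff_mul_comm] at this
  exact this

theorem commutator_le_of_sup {A N : Subgroup G} [hN : N.Normal]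
    (hab : ∀ x ∈ A, ∀ y ∈ A, x * y = y * x) (hsup : A ⊔ N = ⊤) : commutator G ≤ N := by
  rw [commutator_def, Subgroup.commutator_le]
  intro g _ h _
  have hg : g ∈ A ⊔ N := by rw [hsup]; trivial
  have hh : h ∈ A ⊔ N := by rw [hsup]; trivial
  obtain ⟨a, ha, n, hn, rfl⟩ := Subgroup.mem_sup_of_normal_right.mp hg
  obtain ⟨a', ha', n', hn', rfl⟩ := Subgroup.mem_sup_of_normal_right.mp hh
  have h1 : (QuotientGroup.mk' N) n = 1 := (QuotientGroup.eq_one_iff n).mpr hn
  have h2 : (QuotientGroup.mk' N) n' = 1 := (QuotientGroup.eq_one_iff n').mpr hn'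
  have h3 : ⁅a, a'⁆ = 1 := by rw [commutatorElement_eq_one_iff_mul_comm]; exact hab _ ha _ ha'
  rw [← QuotientGroup.ker_mk' N, MonoidHom.mem_ker, map_commutatorElement, map_mul, map_mul, h1, h2,
    mul_one, mul_one, ← map_commutatorElement, h3, map_one]

theorem normal_centralizer_aux (K : Subgroup G) [hK : K.Normal] :
    (centralizer (K : Set G)).Normal := by
  constructor
  intro g hg c
  rw [Subgroup.mem_centralizer_iff] at hg ⊢
  intro k hk
  have h1 := hg (c⁻¹ * k * c) (by simpa using hK.conj_mem k hk c⁻¹)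
  calc k * (c * g * c⁻¹) = c * ((c⁻¹ * k * c) * g) * c⁻¹ := by group
    _ = c * (g * (c⁻¹ * k * c)) * c⁻¹ := by rw [h1]
    _ = (c * g * c⁻¹) * k := by group

theorem commute_closure {x y : G} (h : ∀ g : G, Commute (g * x * g⁻¹) y) :
    ∀ u ∈ normalClosure ({x} : Set G), ∀ v ∈ normalClosure ({y} : Set G), Commute u v := by
  have h1 : normalClosure ({x} : Set G) ≤ centralizer ({y} : Set G) := by
    refine (Subgroup.closure_le _).mpr ?_
    intro c hc
    obtain ⟨a, ha, hac⟩ := Group.mem_conjugatesOfSet_iff.mp hc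
    obtain ⟨g, rfl⟩ := isConj_iff.mp hac
    rw [Set.mem_singleton_iff] at ha
    subst ha
    rw [SetLike.mem_coe, Subgroup.mem_centralizer_iff]
    rintro _ rfl
    exact (h g).symm
  haveI := normal_centralizer_aux (normalClosure ({x} : Set G))
  have h2 : normalClosure ({y} : Set G) ≤ centralizer (normalClosure ({x} : Set G) : Set G) := by
    apply Subgroup.normalClosure_le_normal
    intro _ hc
    rw [Set.mem_singleton_iff] at hc
    subst hc
    rw [SetLike.mem_coe, Subgroup.mem_centralizer_iff]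
    intro u hu
    have := (Subgroup.mem_centralizer_iff.mp (h1 hu)) _ rfl
    exact this.symm
  intro u hu v hv
  exact (Subgroup.mem_centralizer_iff.mp (h2 hv)) u hu

theorem crit_F2 {A B : Subgroup G} (hS : Setup A B)
    (hRle : ∀ N : Subgroup G, N.Normal → N ≠ ⊥ → commutator G ≤ N) {x y : G} (hx : x ∈ A)
    (hyc : ∀ b ∈ B, Commute y b) (hxy : Commute x y) (hx1 : x ≠ 1) (hy1 : y ≠ 1) :
    ∀ u ∈ commutator G, ∀ v ∈ commutator G, Commute u v := by
  have hc : ∀ g : G, Commute (g * x * g⁻¹) y := by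
    intro g
    obtain ⟨b, hb, a, ha, rfl⟩ := Cfsg.Agent.Lib.Prod.ito_fac' hS.fac g
    have e : b * a * x * (b * a)⁻¹ = b * x * b⁻¹ := by
      have h1 : a * x = x * a := hS.ab a ha x hx
      calc b * a * x * (b * a)⁻¹ = b * (a * x) * a⁻¹ * b⁻¹ := by group
        _ = b * (x * a) * a⁻¹ * b⁻¹ := by rw [h1]
        _ = b * x * b⁻¹ := by group
    rw [e]
    have hb1 := (hyc b hb).symm
    exact (hb1.mul_left hxy).mul_left hb1.inv_left
  have hX : commutator G ≤ normalClosure ({x} : Set G) := by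
    apply hRle _ Subgroup.normalClosure_normal
    intro h
    apply hx1
    have : x ∈ normalClosure ({x} : Set G) := Subgroup.subset_normalClosure rfl
    rwa [h, Subgroup.mem_bot] at this
  have hY : commutator G ≤ normalClosure ({y} : Set G) := by
    apply hRle _ Subgroup.normalClosure_normal
    intro h
    apply hy1
    have : y ∈ normalClosure ({y} : Set G) := Subgroup.subset_normalClosure rfl
    rwa [h, Subgroup.mem_bot] at this
  intro u hu v hv
  exact commute_closure hc u (hX hu) v (hY hv)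

section Fin

variable [Finite G]

theorem exists_central_of_nil {T : Type u} [Group T] [Finite T] [Group.IsNilpotent T]
    (h : (⊥ : Subgroup T) ≠ ⊤) : ∃ y : T, y ≠ 1 ∧ ∀ b : T, Commute y b := by
  have hc : Nat.card T ≠ 1 := by
    intro hc
    apply h
    haveI := (Nat.card_eq_one_iff_unique.mp hc).1
    exact Subsingleton.elim _ _
  have hp := Nat.minFac_prime hc
  haveI : Fact (Nat.card T).minFac.Prime := ⟨hp⟩
  obtain ⟨P⟩ : Nonempty (Sylow (Nat.card T).minFac T) := inferInstance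
  obtain ⟨y, -, hy, hyc⟩ := exists_central_elt P (Nat.minFac_dvd _)
  exact ⟨y, hy, hyc⟩

theorem crit_abelian {A B : Subgroup G} (hS : Setup A B)
    (HA : ∀ N : Subgroup G, N.Normal → A ≤ N → N = ⊤)
    (hRle : ∀ N : Subgroup G, N.Normal → N ≠ ⊥ → commutator G ≤ N)
    (hsupA : A ⊔ commutator G = ⊤) (hsupB : B ⊔ commutator G = ⊤)
    (hRbot : commutator G ≠ ⊥)
    (hRab : ∀ u ∈ commutator G, ∀ v ∈ commutator G, Commute u v) : False := by
  have hAtop : A = ⊤ → False := by
    intro h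
    apply hRbot
    apply commutator_bot_of_comm
    intro x y
    exact hS.ab x (by rw [h]; trivial) y (by rw [h]; trivial)
  have hAR : A ⊓ commutator G = ⊥ := by
    by_contra hne
    have hcen : ∀ t ∈ A ⊓ commutator G, ∀ g : G, Commute t g := by
      intro t ht g
      have hg : g ∈ A ⊔ commutator G := by rw [hsupA]; trivial
      obtain ⟨a, ha, r, hr, rfl⟩ := Subgroup.mem_sup_of_normal_right.mp hg
      exact (show Commute t a from hS.ab t ht.1 a ha).mul_right (hRab t ht.2 r hr)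
    have hnorm : (A ⊓ commutator G).Normal := by
      constructor
      intro t ht g
      have : g * t * g⁻¹ = t := by
        rw [(hcen t ht g).symm.eq]; group
      rwa [this]
    have h1 := hRle _ hnorm hne
    have h2 : commutator G ≤ A := h1.trans inf_le_left
    apply hAtop
    rwa [sup_eq_left.mpr h2] at hsupA
  have hBR : B ⊓ commutator G = ⊥ := by
    by_contra hne
    have hnorm : (B ⊓ commutator G).Normal := by
      constructor
      intro t ht g
      have hg : g ∈ B ⊔ commutator G := by rw [hsupB]; trivial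
      obtain ⟨b, hb, r, hr, rfl⟩ := Subgroup.mem_sup_of_normal_right.mp hg
      have e : b * r * t * (b * r)⁻¹ = b * t * b⁻¹ := by
        have h1 : r * t = t * r := hRab r hr t ht.2
        calc b * r * t * (b * r)⁻¹ = b * (r * t) * r⁻¹ * b⁻¹ := by group
          _ = b * (t * r) * r⁻¹ * b⁻¹ := by rw [h1]
          _ = b * t * b⁻¹ := by group
      rw [e]
      refine ⟨B.mul_mem (B.mul_mem hb ht.1) (B.inv_mem hb), ?_⟩
      haveI : (commutator G).Normal := inferInstance
      exact Subgroup.Normal.conj_mem inferInstance t ht.2 b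
    have h1 := hRle _ hnorm hne
    have h2 : commutator G ≤ B := h1.trans inf_le_left
    have hB : B = ⊤ := by rwa [sup_eq_left.mpr h2] at hsupB
    haveI := hS.nil
    haveI : Group.IsNilpotent G := by
      refine Group.nilpotent_of_surjective B.subtype ?_
      intro g
      exact ⟨⟨g, by rw [hB]; trivial⟩, rfl⟩
    have hbt : (⊥ : Subgroup G) ≠ ⊤ := by
      intro h
      apply hRbot
      rw [eq_bot_iff, h]; exact le_top
    obtain ⟨y, hy1, hyc⟩ := exists_central_of_nil hbt
    have hcenter : center G ≠ ⊥ := by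
      intro h
      apply hy1
      have : y ∈ center G := by
        rw [Subgroup.mem_center_iff]; intro g; exact (hyc g).symm
      rwa [h, Subgroup.mem_bot] at this
    have h3 := hRle _ inferInstance hcenter
    apply hAtop
    apply HA A _ le_rfl
    constructor
    intro a ha g
    have hg : g ∈ A ⊔ commutator G := by rw [hsupA]; trivial
    obtain ⟨a₀, ha₀, r, hr, rfl⟩ := Subgroup.mem_sup_of_normal_right.mp hg
    have h4 : ∀ c : G, r * c = c * r := by
      intro c
      exact ((Subgroup.mem_center_iff.mp (h3 hr)) c).symm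
    have e : a₀ * r * a * (a₀ * r)⁻¹ = a₀ * a * a₀⁻¹ := by
      calc a₀ * r * a * (a₀ * r)⁻¹ = a₀ * (r * a) * r⁻¹ * a₀⁻¹ := by group
        _ = a₀ * (a * r) * r⁻¹ * a₀⁻¹ := by rw [h4]
        _ = a₀ * a * a₀⁻¹ := by group
    rw [e]
    exact mul_mem (mul_mem ha₀ ha) (inv_mem ha₀)
  have hBab : ∀ x ∈ B, ∀ y ∈ B, x * y = y * x := by
    intro x hx y hy
    have h1 : ⁅x, y⁆ ∈ B ⊓ commutator G := by
      refine ⟨?_, ?_⟩
      · rw [commutatorElement_def]
        exact B.mul_mem (B.mul_mem (B.mul_mem hx hy) (B.inv_mem hx)) (B.inv_mem hy)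
      · rw [_root_.commutator_def]; exact Subgroup.commutator_mem_commutator trivial trivial
    rw [hBR, Subgroup.mem_bot, commutatorElement_eq_one_iff_mul_comm] at h1
    exact h1
  haveI : IsMulCommutative A := ⟨⟨fun x y => Subtype.ext (hS.ab x.1 x.2 y.1 y.2)⟩⟩
  haveI : IsMulCommutative B := ⟨⟨fun x y => Subtype.ext (hBab x.1 x.2 y.1 y.2)⟩⟩
  haveI : Nontrivial G := by
    by_contra hnt
    rw [not_nontrivial_iff_subsingleton] at hnt
    exact hRbot (Subsingleton.elim _ _)
  obtain ⟨N, hN, hN1, hN2⟩ := Cfsg.Agent.Lib.Prod.ito_normal A B hS.fac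
  have h3 := hRle N hN hN1
  rcases hN2 with h | h
  · apply hRbot
    have := inf_eq_right.mpr (h3.trans h)
    rwa [hAR, eq_comm] at this
  · apply hRbot
    have := inf_eq_right.mpr (h3.trans h)
    rwa [hBR, eq_comm] at this

theorem mem_smul_sylow {p : ℕ} [Fact p.Prime] (g : G) (S : Sylow p G) (z : G) :
    z ∈ ((g • S : Sylow p G) : Subgroup G) ↔ g⁻¹ * z * g ∈ (S : Subgroup G) := by
  rw [Sylow.coe_subgroup_smul, Subgroup.mem_pointwise_smul_iff_inv_smul_mem]
  simp [MulAut.smul_def, MulAut.conj_apply]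

end Fin

section Fin2

variable [Finite G]

theorem crit_coprime {A B : Subgroup G} (hS : Setup A B)
    (hF2 : ∀ x ∈ A, ∀ y ∈ B, (∀ b ∈ B, Commute y b) → Commute x y → x ≠ 1 → y ≠ 1 → False) :
    Nat.Coprime (Nat.card A) (Nat.card B) := by
  by_contra h
  obtain ⟨p, hp, hpA, hpB⟩ := Nat.Prime.not_coprime_iff_dvd.mp h
  haveI : Fact p.Prime := ⟨hp⟩
  haveI := hS.nil
  obtain ⟨x₀, hx₀⟩ := exists_prime_orderOf_dvd_card' p hpA
  obtain ⟨P⟩ : Nonempty (Sylow p B) := inferInstance
  obtain ⟨y₀, hy₀P, hy₀1, hy₀c⟩ := exists_central_elt P hpB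
  have hBpP : IsPGroup p ((P : Subgroup B).map B.subtype) := P.isPGroup'.map _
  have hx1 : (x₀ : G) ≠ 1 := by
    intro h1
    have : x₀ = 1 := Subtype.ext h1
    rw [this, orderOf_one] at hx₀
    exact hp.one_lt.ne hx₀
  have hxo : orderOf (x₀ : G) = p := by rw [Subgroup.orderOf_coe]; exact hx₀
  have hxp : IsPGroup p (zpowers (x₀ : G)) :=
    IsPGroup.iff_card.mpr ⟨1, by rw [Nat.card_zpowers, hxo, pow_one]⟩
  obtain ⟨S₁, hS₁⟩ := hxp.exists_le_sylow
  obtain ⟨S₂, hS₂⟩ := hBpP.exists_le_sylow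
  obtain ⟨g, hg⟩ := MulAction.exists_smul_eq G S₁ S₂
  obtain ⟨b, hb, a, ha, rfl⟩ := Cfsg.Agent.Lib.Prod.ito_fac' hS.fac g
  have hxS : (x₀ : G) ∈ ((a • S₁ : Sylow p G) : Subgroup G) := by
    rw [mem_smul_sylow]
    have h1 : a⁻¹ * (x₀ : G) * a = x₀ := by
      have := hS.ab (x₀ : G) x₀.2 a ha
      rw [mul_assoc, this]; group
    rw [h1]; exact hS₁ (mem_zpowers _)
  have hBS : ∀ z : B, z ∈ (P : Subgroup B) → (z : G) ∈ ((a • S₁ : Sylow p G) : Subgroup G) := by
    intro z hz
    rw [mem_smul_sylow]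
    have h1 : (⟨b, hb⟩ : B) * z * (⟨b, hb⟩ : B)⁻¹ ∈ (P : Subgroup B) :=
      Subgroup.Normal.conj_mem inferInstance z hz _
    have h2 : b * (z : G) * b⁻¹ ∈ (((b * a) • S₁ : Sylow p G) : Subgroup G) := by
      rw [hg]; exact hS₂ ⟨_, h1, rfl⟩
    rw [mem_smul_sylow] at h2
    have e : (b * a)⁻¹ * (b * (z : G) * b⁻¹) * (b * a) = a⁻¹ * z * a := by group
    rwa [e] at h2
  generalize (a • S₁ : Sylow p G) = S at hxS hBS
  haveI : Nontrivial (S : Subgroup G) :=
    ⟨⟨⟨x₀, hxS⟩, 1, fun h => hx1 (congrArg Subtype.val h)⟩⟩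
  haveI := S.isPGroup'.center_nontrivial
  obtain ⟨w, hw⟩ := exists_ne (1 : center (S : Subgroup G))
  have hwS : (w.1 : G) ∈ (S : Subgroup G) := w.1.2
  have hwc : ∀ s ∈ (S : Subgroup G), Commute (w.1 : G) s := by
    intro s hs
    exact (congrArg Subtype.val ((Subgroup.mem_center_iff.mp w.2) ⟨s, hs⟩)).symm
  have hw1 : (w.1 : G) ≠ 1 := by
    intro h; apply hw; ext; simpa using h
  obtain ⟨a', ha', b', hb', hwe⟩ := hS.fac (w.1 : G)
  have hyc : ∀ b ∈ B, Commute (y₀ : G) b := fun b hb => congrArg Subtype.val (hy₀c ⟨b, hb⟩)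
  have hy1 : (y₀ : G) ≠ 1 := fun h => hy₀1 (Subtype.ext h)
  have hya : Commute a' (y₀ : G) := by
    have h1 : Commute (w.1 : G) y₀ := hwc _ (hBS y₀ hy₀P)
    rw [hwe] at h1
    have h2 := hyc b' hb'
    show a' * y₀ = y₀ * a'
    have : a' * y₀ * b' = y₀ * a' * b' := by
      calc a' * y₀ * b' = a' * (y₀ * b') := by group
        _ = a' * (b' * y₀) := by rw [h2.eq]
        _ = a' * b' * y₀ := by group
        _ = y₀ * (a' * b') := h1.eq
        _ = y₀ * a' * b' := by group
    exact mul_right_cancel this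
  have ha1 : a' = 1 := by
    by_contra hne
    exact hF2 a' ha' y₀ y₀.2 hyc hya hne hy1
  rw [ha1, one_mul] at hwe
  have hwB : (w.1 : G) ∈ B := hwe ▸ hb'
  have hw₀P : (⟨w.1, hwB⟩ : B) ∈ (P : Subgroup B) := by
    apply mem_sylow_of_pelt
    obtain ⟨k, hk⟩ := pelt_of_mem S hwS
    exact ⟨k, by rw [Subgroup.orderOf_mk]; exact hk⟩
  have hc : ∀ b : B, Commute (⟨w.1, hwB⟩ : B) b :=
    central_of_sylow_central P hw₀P (fun z hz => Subtype.ext (hwc _ (hBS z hz)).eq)
  have hwc2 : ∀ b ∈ B, Commute (w.1 : G) b := fun b hb => congrArg Subtype.val (hc ⟨b, hb⟩)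
  exact hF2 x₀ x₀.2 w.1 hwB hwc2 (hwc _ hxS).symm hx1 hw1

theorem index_dvd_card_of_sup {H N : Subgroup G} [N.Normal] (h : H ⊔ N = ⊤) :
    N.index ∣ Nat.card H := by
  have hf : Function.Surjective ((QuotientGroup.mk' N).comp H.subtype) := by
    intro q
    obtain ⟨g, rfl⟩ := QuotientGroup.mk_surjective q
    have hg : g ∈ H ⊔ N := by rw [h]; trivial
    obtain ⟨a, ha, n, hn, rfl⟩ := Subgroup.mem_sup_of_normal_right.mp hg
    refine ⟨⟨a, ha⟩, ?_⟩
    simp only [MonoidHom.comp_apply, Subgroup.coe_subtype, QuotientGroup.mk'_apply]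
    rw [QuotientGroup.eq]
    simpa using hn
  exact Subgroup.card_dvd_of_surjective _ hf

theorem crit_max [IsSimpleGroup G] {A B T : Subgroup G} (hS : Setup A B) (hBT : B ≤ T)
    (hT : T ≠ ⊤) : T ≤ B := by
  have hA : ∀ a ∈ A, a ∈ T → a = 1 := by
    intro a ha hat
    by_contra hne
    have h1 : normalClosure ({a} : Set G) ≤ T := by
      refine (Subgroup.closure_le _).mpr ?_
      intro c hc
      obtain ⟨a', ha', hac⟩ := Group.mem_conjugatesOfSet_iff.mp hc
      obtain ⟨g, rfl⟩ := isConj_iff.mp hac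
      rw [Set.mem_singleton_iff] at ha'
      subst ha'
      obtain ⟨b, hb, a₀, ha₀, rfl⟩ := Cfsg.Agent.Lib.Prod.ito_fac' hS.fac g
      have e : b * a₀ * a' * (b * a₀)⁻¹ = b * a' * b⁻¹ := by
        have h1 : a₀ * a' = a' * a₀ := hS.ab a₀ ha₀ a' ha
        calc b * a₀ * a' * (b * a₀)⁻¹ = b * (a₀ * a') * a₀⁻¹ * b⁻¹ := by group
          _ = b * (a' * a₀) * a₀⁻¹ * b⁻¹ := by rw [h1]
          _ = b * a' * b⁻¹ := by group
      rw [e]
      exact T.mul_mem (T.mul_mem (hBT hb) hat) (T.inv_mem (hBT hb))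
    have h2 : normalClosure ({a} : Set G) = ⊤ := by
      rcases IsSimpleGroup.eq_bot_or_eq_top_of_normal _ (Subgroup.normalClosure_normal (s := ({a} : Set G))) with h | h
      · exfalso
        apply hne
        have : a ∈ normalClosure ({a} : Set G) := Subgroup.subset_normalClosure rfl
        rwa [h, Subgroup.mem_bot] at this
      · exact h
    exact hT (top_le_iff.mp (h2 ▸ h1))
  intro u hu
  obtain ⟨a, ha, b, hb, rfl⟩ := hS.fac u
  have : a = 1 := hA a ha (by have := T.mul_mem hu (T.inv_mem (hBT hb)); simpa using this)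
  rw [this, one_mul]; exact hb

theorem crit_focal {B : Subgroup G} {q s : ℕ} [Fact q.Prime] [Fact s.Prime] (hqs : q ≠ s)
    [Group.IsNilpotent B] (PQ : Sylow q B) (PS : Sylow s B) (Qh : Sylow q G) (Sh : Sylow s G)
    (hQ : (Qh : Subgroup G) = (PQ : Subgroup B).map B.subtype)
    (hSh : (Sh : Subgroup G) = (PS : Subgroup B).map B.subtype)
    (hnorm : normalizer ((Sh : Subgroup G) : Set G) ≤ B) :
    commutator G ⊓ (Qh : Subgroup G) ≤ ⁅(Qh : Subgroup G), (Qh : Subgroup G)⁆ := by
  have hcomm : ∀ c ∈ (Qh : Subgroup G), ∀ d ∈ (Sh : Subgroup G), Commute c d := by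
    intro c hc d hd
    rw [hQ] at hc; rw [hSh] at hd
    obtain ⟨c₀, hc₀, rfl⟩ := hc
    obtain ⟨d₀, hd₀, rfl⟩ := hd
    obtain ⟨k, hk⟩ := pelt_of_mem PQ hc₀
    obtain ⟨l, hl⟩ := pelt_of_mem PS hd₀
    have h1 : IsPGroup q (zpowers c₀) :=
      IsPGroup.iff_card.mpr ⟨k, by rw [Nat.card_zpowers, hk]⟩
    have h2 : (orderOf d₀).Coprime q := by
      rw [hl]
      exact Nat.Coprime.pow_left l ((Nat.coprime_primes (Fact.out) (Fact.out)).mpr hqs.symm)
    exact congrArg Subtype.val (Cfsg.Agent.Lib.PGroup.commute_of_nilpotent_of_coprime h1 h2).eq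
  rw [Subgroup.commutator_inf_eq_focalSubgroup Qh, Subgroup.focalSubgroup_def, Subgroup.closure_le]
  rintro g ⟨hg, x, hx, u, rfl⟩
  have e : ⁅x, u⁆ = x * (u * x⁻¹ * u⁻¹) := by simp [commutatorElement_def, mul_assoc]
  have h1 : u * x⁻¹ * u⁻¹ ∈ (Qh : Subgroup G) := by
    have h2 : u * x⁻¹ * u⁻¹ = x⁻¹ * ⁅x, u⁆ := by rw [e]; group
    rw [h2]; exact mul_mem (inv_mem hx) hg
  obtain ⟨x', hx'⟩ : ∃ x', x' = u * x⁻¹ * u⁻¹ := ⟨_, rfl⟩
  rw [← hx'] at h1 e
  have hmemC : ∀ d, Commute d x' → d ∈ centralizer ({x'} : Set G) := by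
    intro d hd
    rw [Subgroup.mem_centralizer_iff]
    intro h hh
    rw [Set.mem_singleton_iff.mp hh]
    exact hd.symm.eq
  have hle1 : (Sh : Subgroup G) ≤ centralizer ({x'} : Set G) := fun d hd =>
    hmemC d (hcomm x' h1 d hd).symm
  have hle2 : ((u • Sh : Sylow s G) : Subgroup G) ≤ centralizer ({x'} : Set G) := by
    intro d hd
    rw [mem_smul_sylow] at hd
    apply hmemC
    have h3 := hcomm x⁻¹ (inv_mem hx) _ hd
    show d * x' = x' * d
    rw [hx']
    calc d * (u * x⁻¹ * u⁻¹) = u * ((u⁻¹ * d * u) * x⁻¹) * u⁻¹ := by group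
      _ = u * (x⁻¹ * (u⁻¹ * d * u)) * u⁻¹ := by rw [h3.eq]
      _ = (u * x⁻¹ * u⁻¹) * d := by group
  obtain ⟨c, hc⟩ := MulAction.exists_smul_eq (centralizer ({x'} : Set G))
    ((u • Sh).subtype hle2) (Sh.subtype hle1)
  simp_rw [Sylow.smul_subtype, Subgroup.smul_def, smul_smul] at hc
  have hbN : (c : G) * u ∈ normalizer ((Sh : Subgroup G) : Set G) :=
    Sylow.smul_eq_iff_mem_normalizer.mp (Sylow.subtype_injective hc)
  have hbB := hnorm hbN
  have hcC : x' * (c : G) = c * x' := (Subgroup.mem_centralizer_iff.mp c.2) x' rfl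
  have hx'b : x' = ((c : G) * u) * x⁻¹ * ((c : G) * u)⁻¹ := by
    calc x' = (c : G) * x' * (c : G)⁻¹ := by rw [← hcC]; group
      _ = (c : G) * (u * x⁻¹ * u⁻¹) * (c : G)⁻¹ := congrArg (fun z => (c : G) * z * (c : G)⁻¹) hx'
      _ = ((c : G) * u) * x⁻¹ * ((c : G) * u)⁻¹ := by group
  obtain ⟨w, t, hwt, hw, ht⟩ := nil_decomp (p := q) (⟨(c : G) * u, hbB⟩ : B)
  have hxm := hx
  rw [hQ] at hxm
  obtain ⟨x₀, hx₀, rfl⟩ := hxm
  have htc := ht x₀⁻¹ (pelt_of_mem PQ (inv_mem hx₀))
  have hB2 : (⟨(c : G) * u, hbB⟩ : B) * x₀⁻¹ * (⟨(c : G) * u, hbB⟩ : B)⁻¹ = w * x₀⁻¹ * w⁻¹ := by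
    rw [hwt]
    calc w * t * x₀⁻¹ * (w * t)⁻¹ = w * (t * x₀⁻¹) * t⁻¹ * w⁻¹ := by group
      _ = w * (x₀⁻¹ * t) * t⁻¹ * w⁻¹ := by rw [htc.eq]
      _ = w * x₀⁻¹ * w⁻¹ := by group
  have hG2 := congrArg Subtype.val hB2
  simp only [Subgroup.coe_mul, Subgroup.coe_inv] at hG2
  have hwQ : (w : G) ∈ (Qh : Subgroup G) := by
    rw [hQ]; exact ⟨w, mem_sylow_of_pelt PQ hw, rfl⟩
  have e2 : ⁅B.subtype x₀, u⁆ = ⁅B.subtype x₀, (w : G)⁆ := by
    rw [e, hx'b]
    simp only [Subgroup.coe_subtype] at hG2 ⊢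
    rw [hG2]
    simp [commutatorElement_def, mul_assoc]
  rw [e2]
  exact Subgroup.commutator_mem_commutator hx hwQ

end Fin2

section Fin3

variable [Finite G]

theorem exists_sylow_of_map {B : Subgroup G} {r : ℕ} [Fact r.Prime] (hr : ¬ r ∣ B.index)
    (P : Sylow r B) : ∃ Q : Sylow r G, (Q : Subgroup G) = (P : Subgroup B).map B.subtype := by
  have h1 : IsPGroup r ((P : Subgroup B).map B.subtype) := P.isPGroup'.map _
  refine ⟨h1.toSylow ?_, IsPGroup.toSylow_coe _ _⟩
  rw [Subgroup.index_map_subtype, Nat.Prime.dvd_mul Fact.out]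
  rintro (h | h)
  · exact P.not_dvd_index h
  · exact hr h

theorem crit_simple_final [IsSimpleGroup G] {A B : Subgroup G} (hS : Setup A B)
    (hdisj : A ⊓ B = ⊥) (hcop : Nat.Coprime (Nat.card A) (Nat.card B)) (hAb : A ≠ ⊥) (hBb : B ≠ ⊥)
    (hperf : commutator G = ⊤) : False := by
  classical
  haveI := hS.nil
  have hcompl : IsComplement' A B := by
    apply Subgroup.isComplement'_of_disjoint_and_mul_eq_univ (disjoint_iff.mpr hdisj)
    rw [Set.eq_univ_iff_forall]
    intro g
    obtain ⟨a, ha, b, hb, rfl⟩ := hS.fac g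
    exact Set.mul_mem_mul ha hb
  have hidxA : A.index = Nat.card B := hcompl.symm.index_eq_card
  have hidxB : B.index = Nat.card A := hcompl.index_eq_card
  have hcB : Nat.card B ≠ 1 := fun h => hBb (Subgroup.eq_bot_of_card_eq _ h)
  have hqp := Nat.minFac_prime hcB
  obtain ⟨q, hqdef⟩ : ∃ q, q = (Nat.card B).minFac := ⟨_, rfl⟩
  rw [← hqdef] at hqp
  have hqd : q ∣ Nat.card B := hqdef ▸ Nat.minFac_dvd _
  have hcard0 : Nat.card B ≠ 0 := Nat.card_pos.ne'
  obtain ⟨k, m, hm, hkm⟩ := Nat.exists_eq_pow_mul_and_not_dvd hcard0 q hqp.ne_one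
  by_cases hm1 : m = 1
  · have hBpow : Nat.card B = q ^ k := by rw [hkm, hm1, mul_one]
    obtain ⟨x, hx, hx1⟩ : ∃ x ∈ A, x ≠ 1 := by
      by_contra hcon
      push Not at hcon
      apply hAb
      rw [eq_bot_iff]
      intro x hx
      exact (Subgroup.mem_bot).mpr (hcon x hx)
    have hle : A ≤ centralizer ({x} : Set G) := by
      intro a ha
      rw [Subgroup.mem_centralizer_iff]
      intro h hh
      rw [Set.mem_singleton_iff.mp hh]
      exact hS.ab x hx a ha
    have hdvd : (centralizer ({x} : Set G)).index ∣ A.index := Subgroup.index_dvd_of_le hle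
    rw [hidxA, hBpow] at hdvd
    obtain ⟨j, _, hj⟩ := (Nat.dvd_prime_pow hqp).mp hdvd
    have hprime := Cfsg.Agent.Lib.Char.prime_card_of_conjClass_prime_pow q j hqp x hx1 hj
    haveI : Fact (Nat.card G).Prime := ⟨hprime⟩
    haveI : IsCyclic G := isCyclic_of_prime_card rfl
    have h1 : commutator G = ⊥ := by
      apply commutator_bot_of_comm
      intro a b
      letI := IsCyclic.commGroup (α := G)
      exact mul_comm a b
    rw [hperf] at h1
    exact top_ne_bot h1
  · have hsp := Nat.minFac_prime hm1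
    obtain ⟨s, hsdef⟩ : ∃ s, s = m.minFac := ⟨_, rfl⟩
    rw [← hsdef] at hsp
    have hsm : s ∣ m := hsdef ▸ Nat.minFac_dvd _
    have hqs : q ≠ s := by
      rintro rfl
      exact hm hsm
    have hsd : s ∣ Nat.card B := by rw [hkm]; exact dvd_mul_of_dvd_right hsm _
    haveI : Fact q.Prime := ⟨hqp⟩
    haveI : Fact s.Prime := ⟨hsp⟩
    obtain ⟨PQ⟩ : Nonempty (Sylow q B) := inferInstance
    obtain ⟨PS⟩ : Nonempty (Sylow s B) := inferInstance
    have hnd : ∀ r : ℕ, r.Prime → r ∣ Nat.card B → ¬ r ∣ B.index := by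
      intro r hr hrd hrd2
      rw [hidxB] at hrd2
      exact hr.ne_one (Nat.eq_one_of_dvd_coprimes hcop hrd2 hrd)
    obtain ⟨Qh, hQ⟩ := exists_sylow_of_map (hnd q hqp hqd) PQ
    obtain ⟨Sh, hSh⟩ := exists_sylow_of_map (hnd s hsp hsd) PS
    have hPS : (PS : Subgroup B) ≠ ⊥ := Sylow.ne_bot_of_dvd_card PS hsd
    have hPQ : (PQ : Subgroup B) ≠ ⊥ := Sylow.ne_bot_of_dvd_card PQ hqd
    have hBT : B ≤ normalizer ((Sh : Subgroup G) : Set G) := by
      intro b hb
      rw [Subgroup.mem_normalizer_iff]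
      intro h
      rw [hSh]
      constructor
      · rintro ⟨z, hz, rfl⟩
        exact ⟨(⟨b, hb⟩ : B) * z * (⟨b, hb⟩ : B)⁻¹,
          Subgroup.Normal.conj_mem inferInstance z hz _, rfl⟩
      · rintro ⟨z, hz, hzh⟩
        refine ⟨(⟨b, hb⟩ : B)⁻¹ * z * (⟨b, hb⟩ : B), ?_, ?_⟩
        · have := Subgroup.Normal.conj_mem (inferInstance : (PS : Subgroup B).Normal) z hz (⟨b, hb⟩ : B)⁻¹
          have h3 : (⟨b, hb⟩ : B)⁻¹ * z * (⟨b, hb⟩ : B) ∈ (PS : Subgroup B) := by
            rwa [inv_inv] at this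
          exact h3
        · simp only [Subgroup.coe_subtype] at hzh
          simp only [Subgroup.coe_subtype, Subgroup.coe_mul, Subgroup.coe_inv, hzh]
          group
    have hT : normalizer ((Sh : Subgroup G) : Set G) ≠ ⊤ := by
      intro htop
      have hn : (Sh : Subgroup G).Normal := Subgroup.normalizer_eq_top_iff.mp htop
      rcases IsSimpleGroup.eq_bot_or_eq_top_of_normal _ hn with h | h
      · rw [hSh, Subgroup.map_eq_bot_iff_of_injective _ B.subtype_injective] at h
        exact hPS h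
      · have h2 : B = ⊤ := by
          rw [eq_top_iff, ← h, hSh]
          exact Subgroup.map_subtype_le _
        apply hAb
        rw [h2, inf_top_eq] at hdisj
        exact hdisj
    have hTB := crit_max hS hBT hT
    have hfoc := crit_focal hqs PQ PS Qh Sh hQ hSh hTB
    rw [hperf, top_inf_eq] at hfoc
    haveI : Nontrivial (Qh : Subgroup G) := by
      rw [Subgroup.nontrivial_iff_ne_bot, hQ]
      intro h
      rw [Subgroup.map_eq_bot_iff_of_injective _ B.subtype_injective] at h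
      exact hPQ h
    haveI : Group.IsNilpotent (Qh : Subgroup G) := Qh.isPGroup'.isNilpotent
    have hlt := Group.IsSolvable.commutator_lt_top_of_nontrivial (Qh : Subgroup G)
    apply hlt.ne
    rw [eq_top_iff]
    rintro z -
    have hz : (z : G) ∈ ⁅(Qh : Subgroup G), (Qh : Subgroup G)⁆ := hfoc z.2
    rw [← Subgroup.map_subtype_commutator] at hz
    obtain ⟨z', hz', e⟩ := hz
    have : z' = z := Subtype.ext e
    rwa [← this]

theorem crit_false {A B : Subgroup G} (hS : Setup A B)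
    (HA : ∀ N : Subgroup G, N.Normal → A ≤ N → N = ⊤)
    (HB : ∀ N : Subgroup G, N.Normal → B ≤ N → N = ⊤)
    (HQ : ∀ N : Subgroup G, N.Normal → N ≠ ⊥ → A ⊔ N = ⊤ ∧ B ⊔ N = ⊤)
    (hne : A ≠ ⊤ ∨ B ≠ ⊤) : False := by
  have hRle : ∀ N : Subgroup G, N.Normal → N ≠ ⊥ → commutator G ≤ N := by
    intro N hN hN1
    exact commutator_le_of_sup hS.ab (HQ N hN hN1).1
  haveI := hS.nil
  have hRbot : commutator G ≠ ⊥ := by
    intro h
    have hc := comm_of_commutator_bot h
    have hnorm : ∀ H : Subgroup G, H.Normal := by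
      intro H
      constructor
      intro n hn g
      rw [hc g n]
      simpa using hn
    rcases hne with h1 | h1
    · exact h1 (HA A (hnorm A) le_rfl)
    · exact h1 (HB B (hnorm B) le_rfl)
  obtain ⟨hsupA, hsupB⟩ := HQ _ inferInstance hRbot
  by_cases hRab : ∀ u ∈ commutator G, ∀ v ∈ commutator G, Commute u v
  · exact crit_abelian hS HA hRle hsupA hsupB hRbot hRab
  have hF2 : ∀ x ∈ A, ∀ y ∈ B, (∀ b ∈ B, Commute y b) → Commute x y → x ≠ 1 → y ≠ 1 → False :=
    fun x hx y _ hyc hxy hx1 hy1 => hRab (crit_F2 hS hRle hx hyc hxy hx1 hy1)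
  have hBb : B ≠ ⊥ := by
    intro h
    apply hRbot
    apply commutator_bot_of_comm
    intro x y
    obtain ⟨a, ha, b, hb, rfl⟩ := hS.fac x
    obtain ⟨a', ha', b', hb', rfl⟩ := hS.fac y
    rw [h, Subgroup.mem_bot] at hb hb'
    subst hb hb'
    simpa using hS.ab a ha a' ha'
  have hcop := crit_coprime hS hF2
  have hRtop : commutator G = ⊤ := by
    have h1 := index_dvd_card_of_sup hsupA
    have h2 := index_dvd_card_of_sup hsupB
    exact Subgroup.index_eq_one.mp (Nat.eq_one_of_dvd_coprimes hcop h1 h2)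
  have hAb : A ≠ ⊥ := by
    intro h
    have hBtop : B = ⊤ := by
      rw [eq_top_iff]
      rintro g -
      obtain ⟨a, ha, b, hb, rfl⟩ := hS.fac g
      rw [h, Subgroup.mem_bot] at ha
      rw [ha, one_mul]; exact hb
    haveI : Group.IsNilpotent G := by
      refine Group.nilpotent_of_surjective B.subtype ?_
      intro g
      exact ⟨⟨g, by rw [hBtop]; trivial⟩, rfl⟩
    haveI : Nontrivial G := by
      by_contra hnt
      rw [not_nontrivial_iff_subsingleton] at hnt
      exact hRbot (Subsingleton.elim _ _)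
    have hlt := Group.IsSolvable.commutator_lt_top_of_nontrivial G
    exact hlt.ne hRtop
  haveI : Nontrivial G := by
    by_contra hnt
    rw [not_nontrivial_iff_subsingleton] at hnt
    exact hRbot (Subsingleton.elim _ _)
  haveI : IsSimpleGroup G := ⟨fun N hN => by
    by_cases h : N = ⊥
    · exact Or.inl h
    · right
      rw [eq_top_iff, ← hRtop]
      exact hRle N hN h⟩
  have hdisj : A ⊓ B = ⊥ := by
    by_contra hne2
    obtain ⟨t, ht, ht1⟩ : ∃ t ∈ A ⊓ B, t ≠ 1 := by
      by_contra hcon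
      push Not at hcon
      apply hne2
      rw [eq_bot_iff]
      intro x hx
      exact (Subgroup.mem_bot).mpr (hcon x hx)
    have hnt : (⊥ : Subgroup B) ≠ ⊤ := by
      intro h
      apply hBb
      rw [eq_bot_iff]
      intro b hb
      have h1 : (⟨b, hb⟩ : B) ∈ (⊥ : Subgroup B) := by rw [h]; trivial
      rw [Subgroup.mem_bot] at h1
      exact Subgroup.mem_bot.mpr (congrArg Subtype.val h1)
    obtain ⟨y, hy1, hyc⟩ := exists_central_of_nil hnt
    have hyc2 : ∀ b ∈ B, Commute (y : G) b := fun b hb => congrArg Subtype.val (hyc ⟨b, hb⟩)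
    exact hF2 t ht.1 y y.2 hyc2 (hyc2 t ht.2).symm ht1 (fun h => hy1 (Subtype.ext h))
  exact crit_simple_final hS hdisj hcop hAb hBb hRtop

end Fin3

/-- **Lemma K**: a finite product of an abelian and a nilpotent subgroup, with at least one proper
factor, has a proper normal subgroup containing a factor. -/
theorem lemK : ∀ (n : ℕ) (G : Type u) [Group G] [Finite G] (A B : Subgroup G), Nat.card G = n →
    Setup A B → (A ≠ ⊤ ∨ B ≠ ⊤) →
    ∃ N : Subgroup G, N.Normal ∧ N ≠ ⊤ ∧ (A ≤ N ∨ B ≤ N) := by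
  intro n
  induction n using Nat.strong_induction_on with
  | _ n ih =>
    intro G _ _ A B hn hS hne
    by_contra hcon
    push Not at hcon
    have HA : ∀ N : Subgroup G, N.Normal → A ≤ N → N = ⊤ := by
      intro N hN h
      by_contra h1
      exact (hcon N hN h1).1 h
    have HB : ∀ N : Subgroup G, N.Normal → B ≤ N → N = ⊤ := by
      intro N hN h
      by_contra h1
      exact (hcon N hN h1).2 h
    have HQ : ∀ N : Subgroup G, N.Normal → N ≠ ⊥ → A ⊔ N = ⊤ ∧ B ⊔ N = ⊤ := by
      intro N hN hN1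
      have hlt : Nat.card (G ⧸ N) < n := by
        have h1 := Subgroup.card_mul_index N
        have h2 : 1 < Nat.card N := by
          rw [Finite.one_lt_card_iff_nontrivial, Subgroup.nontrivial_iff_ne_bot]
          exact hN1
        have h3 : 0 < N.index := Nat.pos_of_ne_zero Subgroup.FiniteIndex.index_ne_zero
        rw [← hn, ← h1]
        show N.index < _
        nlinarith
      have hS2 := hS.map (QuotientGroup.mk' N) (QuotientGroup.mk'_surjective N)
      have hmaps : A.map (QuotientGroup.mk' N) = ⊤ ∧ B.map (QuotientGroup.mk' N) = ⊤ := by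
        by_contra hnot
        have hne2 : A.map (QuotientGroup.mk' N) ≠ ⊤ ∨ B.map (QuotientGroup.mk' N) ≠ ⊤ := by
          by_contra h
          push Not at h
          exact hnot h
        obtain ⟨N', hN', hN't, hN'le⟩ := ih _ hlt (G ⧸ N) (A.map (QuotientGroup.mk' N)) (B.map (QuotientGroup.mk' N)) rfl hS2 hne2
        have hcn : (N'.comap (QuotientGroup.mk' N)).Normal := hN'.comap _
        have hcnt : N'.comap (QuotientGroup.mk' N) ≠ ⊤ := by
          intro h
          apply hN't
          rw [eq_top_iff]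
          intro q _
          obtain ⟨g, rfl⟩ := QuotientGroup.mk_surjective q
          have : g ∈ N'.comap (QuotientGroup.mk' N) := by rw [h]; trivial
          exact this
        rcases hN'le with h | h
        · exact hcnt (HA _ hcn (Subgroup.map_le_iff_le_comap.mp h))
        · exact hcnt (HB _ hcn (Subgroup.map_le_iff_le_comap.mp h))
      constructor
      · have := Subgroup.comap_map_eq (QuotientGroup.mk' N) A
        rwa [hmaps.1, QuotientGroup.ker_mk', Subgroup.comap_top, eq_comm] at this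
      · have := Subgroup.comap_map_eq (QuotientGroup.mk' N) B
        rwa [hmaps.2, QuotientGroup.ker_mk', Subgroup.comap_top, eq_comm] at this
    exact crit_false hS HA HB HQ hne


theorem Setup.sub {A B N : Subgroup G} (hS : Setup A B)
    (hN : ∀ g ∈ N, ∀ a ∈ A, ∀ b ∈ B, g = a * b → a ∈ N ∧ b ∈ N) :
    Setup (A.subgroupOf N) (B.subgroupOf N) where
  ab := by
    intro x hx y hy
    exact Subtype.ext (hS.ab _ hx _ hy)
  nil := by
    haveI := hS.nil
    let f : (N.subgroupOf B) →* (B.subgroupOf N) := MonoidHom.mk'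
      (fun x => ⟨⟨x.1.1, x.2⟩, x.1.2⟩) (fun _ _ => rfl)
    refine Group.nilpotent_of_surjective f ?_
    intro y
    exact ⟨⟨⟨y.1.1, y.2⟩, y.1.2⟩, rfl⟩
  fac := by
    intro g
    obtain ⟨a, ha, b, hb, hg⟩ := hS.fac g.1
    obtain ⟨h1, h2⟩ := hN g.1 g.2 a ha b hb hg
    exact ⟨⟨a, h1⟩, ha, ⟨b, h2⟩, hb, Subtype.ext hg⟩

/-- **Lemma S**: a finite product of an abelian and a nilpotent subgroup is solvable. -/
theorem lemS : ∀ (n : ℕ) (G : Type u) [Group G] [Finite G] (A B : Subgroup G), Nat.card G = n →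
    Setup A B → Group.IsSolvable G := by
  intro n
  induction n using Nat.strong_induction_on with
  | _ n ih =>
    intro G _ _ A B hn hS
    haveI := hS.nil
    by_cases hA : A = ⊤
    · exact Group.isSolvable_of_comm (fun x y =>
        hS.ab x (by rw [hA]; trivial) y (by rw [hA]; trivial))
    by_cases hB : B = ⊤
    · haveI : Group.IsNilpotent G := by
        refine Group.nilpotent_of_surjective B.subtype ?_
        intro g
        exact ⟨⟨g, by rw [hB]; trivial⟩, rfl⟩
      infer_instance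
    obtain ⟨N, hN, hNt, hle⟩ := lemK _ G A B rfl hS (Or.inl hA)
    have hlt : Nat.card N < n := by
      have h1 := Subgroup.card_mul_index N
      have h2 : N.index ≠ 1 := fun h => hNt (Subgroup.index_eq_one.mp h)
      have h3 : N.index ≠ 0 := Subgroup.FiniteIndex.index_ne_zero
      have h4 : 0 < Nat.card N := Nat.card_pos
      have h5 : 2 ≤ N.index := by omega
      rw [← hn, ← h1]
      nlinarith
    have hSsub : Setup (A.subgroupOf N) (B.subgroupOf N) := by
      apply hS.sub
      intro g hg a ha b hb hgab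
      rcases hle with h | h
      · refine ⟨h ha, ?_⟩
        have := N.mul_mem (N.inv_mem (h ha)) hg
        rwa [hgab, inv_mul_cancel_left] at this
      · refine ⟨?_, h hb⟩
        have := N.mul_mem hg (N.inv_mem (h hb))
        rwa [hgab, mul_inv_cancel_right] at this
    haveI : Group.IsSolvable N := ih _ hlt N _ _ rfl hSsub
    haveI : Group.IsSolvable (G ⧸ N) := by
      rcases hle with h | h
      · have hf : Function.Surjective ((QuotientGroup.mk' N).comp B.subtype) := by
          intro q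
          obtain ⟨g, rfl⟩ := QuotientGroup.mk_surjective q
          obtain ⟨a, ha, b, hb, rfl⟩ := hS.fac g
          refine ⟨⟨b, hb⟩, ?_⟩
          simp only [MonoidHom.comp_apply, Subgroup.coe_subtype, QuotientGroup.mk'_apply]
          rw [QuotientGroup.eq]
          have := hN.conj_mem a (h ha) b⁻¹
          simpa [mul_assoc] using this
        exact Group.isSolvable_of_surjective hf
      · have hf : Function.Surjective ((QuotientGroup.mk' N).comp A.subtype) := by
          intro q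
          obtain ⟨g, rfl⟩ := QuotientGroup.mk_surjective q
          obtain ⟨a, ha, b, hb, rfl⟩ := hS.fac g
          refine ⟨⟨a, ha⟩, ?_⟩
          simp only [MonoidHom.comp_apply, Subgroup.coe_subtype, QuotientGroup.mk'_apply]
          rw [QuotientGroup.eq]
          have := h hb
          simpa using this
        haveI : Group.IsSolvable A := Group.isSolvable_of_comm (fun x y =>
          Subtype.ext (hS.ab x.1 x.2 y.1 y.2))
        exact Group.isSolvable_of_surjective hf
    refine Group.isSolvable_of_ker_le_range N.subtype (QuotientGroup.mk' N) ?_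
    rw [QuotientGroup.ker_mk', Subgroup.range_subtype]

theorem nil_of_class2 {B : Subgroup G} (h : ∀ z ∈ ⁅B, B⁆, ∀ b ∈ B, Commute z b) :
    Group.IsNilpotent B := by
  rw [Subgroup.isNilpotent_iff_lowerCentralSeries]
  refine ⟨2, ?_⟩
  rw [Subgroup.lowerCentralSeries_succ, Subgroup.lowerCentralSeries_succ,
    Subgroup.lowerCentralSeries_zero, eq_bot_iff, Subgroup.commutator_le]
  intro g₁ h₁ g₂ h₂
  rw [Subgroup.mem_bot, commutatorElement_eq_one_iff_commute]
  exact h _ h₁ g₂ h₂

theorem commutator_ne_self [Group.IsSolvable G] [Finite G] {M : Subgroup G} (hM : M ≠ ⊥) :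
    ⁅M, M⁆ ≠ M := by
  intro h
  haveI : Nontrivial M := (Subgroup.nontrivial_iff_ne_bot _).mpr hM
  haveI : Group.IsSolvable M := Group.isSolvable_of_isSolvable_injective M.subtype_injective
  have hlt := Group.IsSolvable.commutator_lt_top_of_nontrivial M
  apply hlt.ne
  rw [eq_top_iff]
  rintro z -
  have hz : (z : G) ∈ ⁅M, M⁆ := by rw [h]; exact z.2
  rw [← Subgroup.map_subtype_commutator] at hz
  obtain ⟨z', hz', e⟩ := hz
  have : z' = z := Subtype.ext e
  rwa [← this]


/-- The main induction: derived length bound for abelian times class-at-most-two products. -/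
theorem main_aux : ∀ (n : ℕ) (G : Type u) [Group G] [Finite G] (A B : Subgroup G), Nat.card G = n →
    (∀ x ∈ A, ∀ y ∈ A, x * y = y * x) → (∀ z ∈ ⁅B, B⁆, ∀ b ∈ B, Commute z b) →
    (∀ g : G, ∃ a ∈ A, ∃ b ∈ B, g = a * b) →
    derivedSeries G (2 * (1 + (Nat.card ↥⁅B, B⁆).primeFactorsList.length)) = ⊥ := by
  intro n
  induction n using Nat.strong_induction_on with
  | _ n ih =>
    intro G _ _ A B hn hAc hBc hfac
    haveI hBnil := nil_of_class2 hBc
    have hS : Setup A B := ⟨hAc, hBnil, hfac⟩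
    haveI : Group.IsSolvable G := lemS _ G A B rfl hS
    by_cases hC : ⁅B, B⁆ = ⊥
    · have hBab : ∀ x ∈ B, ∀ y ∈ B, x * y = y * x := by
        intro x hx y hy
        have := Subgroup.commutator_mem_commutator hx hy
        rw [hC, Subgroup.mem_bot, commutatorElement_eq_one_iff_mul_comm] at this
        exact this
      haveI : IsMulCommutative A := ⟨⟨fun x y => Subtype.ext (hAc x.1 x.2 y.1 y.2)⟩⟩
      haveI : IsMulCommutative B := ⟨⟨fun x y => Subtype.ext (hBab x.1 x.2 y.1 y.2)⟩⟩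
      have h2 := Cfsg.Agent.Lib.Prod.derivedSeries_two_eq_bot_of_mul A B hfac
      rw [eq_bot_iff, ← h2]
      exact derivedSeries_antitone G (by omega)
    have hne : ({z | z ∈ ⁅B, B⁆ ∧ z ≠ 1} : Set G).Nonempty := by
      by_contra hcon
      apply hC
      rw [eq_bot_iff]
      intro x hx
      by_contra hx1
      exact hcon ⟨x, hx, hx1⟩
    obtain ⟨z, ⟨hzC, hz1⟩, hzmin⟩ := Set.exists_min_image _
      (fun z => Nat.card (normalClosure ({z} : Set G))) (Set.toFinite _) hne
    obtain ⟨M, hMdef⟩ : ∃ M, M = normalClosure ({z} : Set G) := ⟨_, rfl⟩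
    simp only [← hMdef] at hzmin
    haveI hMn : M.Normal := hMdef ▸ Subgroup.normalClosure_normal
    have hzM : z ∈ M := hMdef ▸ Subgroup.subset_normalClosure rfl
    have hMbot : M ≠ ⊥ := by
      intro h
      rw [h, Subgroup.mem_bot] at hzM
      exact hz1 hzM
    haveI hDn : (⁅M, M⁆).Normal := Subgroup.commutator_normal M M
    have hD : ⁅M, M⁆ ⊓ ⁅B, B⁆ = ⊥ := by
      rw [eq_bot_iff]
      intro w hw
      by_contra hw1
      rw [Subgroup.mem_bot] at hw1
      have h1 := hzmin w ⟨hw.2, hw1⟩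
      have h2 : normalClosure ({w} : Set G) ≤ ⁅M, M⁆ :=
        Subgroup.normalClosure_le_normal (Set.singleton_subset_iff.mpr hw.1)
      have h3 : Nat.card (normalClosure ({w} : Set G)) ≤ Nat.card ↥⁅M, M⁆ :=
        Subgroup.card_le_of_le h2
      have h4 : ⁅M, M⁆ ≤ M := Subgroup.commutator_le_left M M
      exact commutator_ne_self hMbot (Subgroup.eq_of_le_of_card_ge h4 (h1.trans h3))
    have hzc : ∀ b ∈ B, Commute z b := hBc z hzC
    have hfcomm : ∀ m ∈ M, ∀ m' ∈ M,
        Commute ((QuotientGroup.mk' ⁅M, M⁆) m) ((QuotientGroup.mk' ⁅M, M⁆) m') := by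
      intro m hm m' hm'
      have h0 := Subgroup.commutator_mem_commutator hm hm'
      have h1 : (QuotientGroup.mk' ⁅M, M⁆) ⁅m, m'⁆ = 1 := (QuotientGroup.eq_one_iff _).mpr h0
      rw [map_commutatorElement, commutatorElement_eq_one_iff_commute] at h1
      exact h1
    have hkey : ∀ a ∈ A, ∀ m ∈ M, a * m ∈ B → ∀ m' ∈ M,
        Commute ((QuotientGroup.mk' ⁅M, M⁆) a) ((QuotientGroup.mk' ⁅M, M⁆) m') := by
      intro a ha m hm hy m' hm'
      obtain ⟨f, hf⟩ : ∃ f, f = QuotientGroup.mk' ⁅M, M⁆ := ⟨_, rfl⟩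
      rw [← hf] at hfcomm ⊢
      have h1 : Commute (f a) (f z) := by
        have h2 : Commute (f (a * m)) (f z) := ((hzc (a * m) hy).symm).map f
        rw [map_mul] at h2
        have h3 := hfcomm m hm z hzM
        show f a * f z = f z * f a
        have h4 : f a * f z * f m = f z * f a * f m := by
          calc f a * f z * f m = f a * (f z * f m) := by group
            _ = f a * (f m * f z) := by rw [h3.eq]
            _ = f a * f m * f z := by group
            _ = f z * (f a * f m) := h2.eq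
            _ = f z * f a * f m := by group
        exact mul_right_cancel h4
      have h4 : M ≤ (centralizer ({f a} : Set (G ⧸ ⁅M, M⁆))).comap f := by
        refine hMdef.le.trans ((Subgroup.closure_le _).mpr ?_)
        intro c hc
        obtain ⟨z', hz', hac⟩ := Group.mem_conjugatesOfSet_iff.mp hc
        rw [Set.mem_singleton_iff] at hz'
        rw [hz'] at hac
        obtain ⟨g, rfl⟩ := isConj_iff.mp hac
        obtain ⟨a₀, ha₀, b₀, hb₀, rfl⟩ := hfac g
        have e : a₀ * b₀ * z * (a₀ * b₀)⁻¹ = a₀ * z * a₀⁻¹ := by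
          have h5 : b₀ * z = z * b₀ := (hzc b₀ hb₀).symm.eq
          calc a₀ * b₀ * z * (a₀ * b₀)⁻¹ = a₀ * (b₀ * z) * b₀⁻¹ * a₀⁻¹ := by group
            _ = a₀ * (z * b₀) * b₀⁻¹ * a₀⁻¹ := by rw [h5]
            _ = a₀ * z * a₀⁻¹ := by group
        rw [SetLike.mem_coe, e, Subgroup.mem_comap, Subgroup.mem_centralizer_iff]
        intro h hh
        rw [Set.mem_singleton_iff.mp hh, map_mul, map_mul, map_inv]
        have h6 : Commute (f a) (f a₀) := (show Commute a a₀ from hAc a ha a₀ ha₀).map f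
        exact ((h6.mul_right h1).mul_right h6.inv_right).eq
      have h7 := h4 hm'
      rw [Subgroup.mem_comap, Subgroup.mem_centralizer_iff] at h7
      exact h7 (f a) rfl
    have hBX : ∀ y ∈ A ⊔ M, y ∈ B → ∀ y' ∈ A ⊔ M, y' ∈ B → y * y' = y' * y := by
      intro y hy hyB y' hy' hyB'
      obtain ⟨a, ha, m, hm, rfl⟩ := Subgroup.mem_sup_of_normal_right.mp hy
      obtain ⟨a', ha', m', hm', rfl⟩ := Subgroup.mem_sup_of_normal_right.mp hy'
      have c1 : Commute ((QuotientGroup.mk' ⁅M, M⁆) a) ((QuotientGroup.mk' ⁅M, M⁆) a') :=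
        (show Commute a a' from hAc a ha a' ha').map _
      have c2 := hkey a ha m hm hyB m' hm'
      have c3 := (hkey a' ha' m' hm' hyB' m hm).symm
      have c4 := hfcomm m hm m' hm'
      have c5 := Commute.mul_left (Commute.mul_right c1 c2) (Commute.mul_right c3 c4)
      have hD1 : ⁅a * m, a' * m'⁆ ∈ ⁅M, M⁆ := by
        rw [← QuotientGroup.ker_mk' ⁅M, M⁆, MonoidHom.mem_ker, map_commutatorElement, map_mul, map_mul,
          commutatorElement_eq_one_iff_commute]
        exact c5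
      have hD2 : ⁅a * m, a' * m'⁆ ∈ ⁅B, B⁆ := Subgroup.commutator_mem_commutator hyB hyB'
      have h8 : ⁅a * m, a' * m'⁆ ∈ ⁅M, M⁆ ⊓ ⁅B, B⁆ := ⟨hD1, hD2⟩
      rw [hD, Subgroup.mem_bot, commutatorElement_eq_one_iff_mul_comm] at h8
      exact h8
    have hDD : ⁅⁅M, M⁆, ⁅M, M⁆⁆ = ⊥ := by
      obtain ⟨X, hX⟩ : ∃ X, X = A ⊔ M := ⟨_, rfl⟩
      rw [← hX] at hBX
      have hAX : A ≤ X := hX ▸ le_sup_left
      have hMX : M ≤ X := hX ▸ le_sup_right
      haveI : IsMulCommutative (A.subgroupOf X) :=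
        ⟨⟨fun x y => Subtype.ext (Subtype.ext (hAc _ x.2 _ y.2))⟩⟩
      haveI : IsMulCommutative (B.subgroupOf X) :=
        ⟨⟨fun x y => Subtype.ext (Subtype.ext (hBX _ x.1.2 x.2 _ y.1.2 y.2))⟩⟩
      have hfacX : ∀ g : X, ∃ a ∈ A.subgroupOf X, ∃ b ∈ B.subgroupOf X, g = a * b := by
        intro g
        obtain ⟨a, ha, b, hb, hgab⟩ := hfac g.1
        have haX : a ∈ X := hAX ha
        have hbX : b ∈ X := by
          have := X.mul_mem (X.inv_mem haX) g.2
          rwa [hgab, inv_mul_cancel_left] at this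
        exact ⟨⟨a, haX⟩, ha, ⟨b, hbX⟩, hb, Subtype.ext hgab⟩
      have h2 := Cfsg.Agent.Lib.Prod.derivedSeries_two_eq_bot_of_mul (A.subgroupOf X) (B.subgroupOf X) hfacX
      have h3 : (⁅M.subgroupOf X, M.subgroupOf X⁆).map X.subtype = ⁅M, M⁆ := by
        rw [Subgroup.map_commutator, Subgroup.map_subgroupOf_eq_of_le hMX]
      rw [← h3, ← Subgroup.map_commutator]
      have h4 : ⁅⁅M.subgroupOf X, M.subgroupOf X⁆, ⁅M.subgroupOf X, M.subgroupOf X⁆⁆ ≤ derivedSeries X 2 := by
        have h5 : ⁅M.subgroupOf X, M.subgroupOf X⁆ ≤ derivedSeries X 1 := by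
          rw [derivedSeries_succ, derivedSeries_zero]
          exact Subgroup.commutator_mono le_top le_top
        rw [derivedSeries_succ]
        exact Subgroup.commutator_mono h5 h5
      rw [h2, le_bot_iff] at h4
      rw [h4, Subgroup.map_bot]
    have hlt : Nat.card (G ⧸ M) < n := by
      have h1 := Subgroup.card_mul_index M
      have h2 : 1 < Nat.card M := by
        rw [Finite.one_lt_card_iff_nontrivial, Subgroup.nontrivial_iff_ne_bot]
        exact hMbot
      have h3 : 0 < M.index := Nat.pos_of_ne_zero Subgroup.FiniteIndex.index_ne_zero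
      rw [← hn, ← h1]
      show M.index < _
      nlinarith
    have hS2 := hS.map (QuotientGroup.mk' M) (QuotientGroup.mk'_surjective M)
    have hBc2 : ∀ z ∈ ⁅B.map (QuotientGroup.mk' M), B.map (QuotientGroup.mk' M)⁆,
        ∀ b ∈ B.map (QuotientGroup.mk' M), Commute z b := by
      rw [← Subgroup.map_commutator]
      rintro _ ⟨c, hc, rfl⟩ _ ⟨b, hb, rfl⟩
      exact (hBc c hc b hb).map _
    have hIH := ih _ hlt (G ⧸ M) (A.map (QuotientGroup.mk' M)) (B.map (QuotientGroup.mk' M)) rfl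
      hS2.ab hBc2 hS2.fac
    have hcount : (Nat.card ↥⁅B.map (QuotientGroup.mk' M), B.map (QuotientGroup.mk' M)⁆).primeFactorsList.length + 1
        ≤ (Nat.card ↥⁅B, B⁆).primeFactorsList.length := by
      rw [← Subgroup.map_commutator]
      let φ : ↥⁅B, B⁆ →* G ⧸ M := (QuotientGroup.mk' M).comp (⁅B, B⁆).subtype
      have hrange : φ.range = (⁅B, B⁆).map (QuotientGroup.mk' M) := by
        ext q
        constructor
        · rintro ⟨c, rfl⟩
          exact ⟨c.1, c.2, rfl⟩
        · rintro ⟨c, hc, rfl⟩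
          exact ⟨⟨c, hc⟩, rfl⟩
      have h1 : Nat.card φ.ker * φ.ker.index = Nat.card ↥⁅B, B⁆ := Subgroup.card_mul_index _
      have h2 : φ.ker.index = Nat.card φ.range := Subgroup.index_ker φ
      rw [hrange] at h2
      rw [h2] at h1
      have hk : Nat.card φ.ker ≠ 1 := by
        intro h
        have h3 := Subgroup.eq_bot_of_card_eq _ h
        have h4 : (⟨z, hzC⟩ : ↥⁅B, B⁆) ∈ φ.ker := by
          rw [MonoidHom.mem_ker]
          exact (QuotientGroup.eq_one_iff z).mpr hzM
        rw [h3, Subgroup.mem_bot] at h4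
        exact hz1 (congrArg Subtype.val h4)
      have hk0 : Nat.card φ.ker ≠ 0 := Nat.card_pos.ne'
      have hr0 : Nat.card ↥((⁅B, B⁆).map (QuotientGroup.mk' M)) ≠ 0 := Nat.card_pos.ne'
      rw [← h1, (Nat.perm_primeFactorsList_mul hk0 hr0).length_eq, List.length_append]
      have hkl : (Nat.card φ.ker).primeFactorsList.length ≠ 0 := by
        intro h
        rw [List.length_eq_zero_iff, Nat.primeFactorsList_eq_nil] at h
        rcases h with h | h
        · exact hk0 h
        · exact hk h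
      omega
    have hder : derivedSeries G (2 * (1 + (Nat.card ↥⁅B.map (QuotientGroup.mk' M), B.map (QuotientGroup.mk' M)⁆).primeFactorsList.length)) ≤ M := by
      have h1 := map_derivedSeries_eq (QuotientGroup.mk'_surjective M)
        (2 * (1 + (Nat.card ↥⁅B.map (QuotientGroup.mk' M), B.map (QuotientGroup.mk' M)⁆).primeFactorsList.length))
      rw [hIH, Subgroup.map_eq_bot_iff, QuotientGroup.ker_mk'] at h1
      exact h1
    obtain ⟨L, hL⟩ : ∃ L, L = (Nat.card ↥⁅B, B⁆).primeFactorsList.length := ⟨_, rfl⟩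
    rw [← hL] at hcount ⊢
    have hder2 : derivedSeries G (2 * L) ≤ M := (derivedSeries_antitone G (by omega)).trans hder
    have e : 2 * (1 + L) = 2 * L + 1 + 1 := by ring
    rw [e, derivedSeries_succ, derivedSeries_succ, eq_bot_iff, ← hDD]
    have h9 := Subgroup.commutator_mono hder2 hder2
    exact Subgroup.commutator_mono h9 h9


end Crit

end Cfsg.Agent.Lib.Techniques.AbNil
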