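import Mathlib
import Cfsg.Agent.Lib.Techniques.Balance3
import Cfsg.Agent.Lib.FStar.Signalizer

/-!
# `O(C_H(t))` acting on the components of `H`, for an involution `t` normalizing `H`, `O(H) = 1`.
-/

set_option autoImplicit false
set_option linter.unusedSectionVars false
set_option linter.unusedVariables false
set_option linter.style.haveILetI false

namespace Cfsg.Agent.Lib.Techniques

open Subgroup Cfsg Cfsg.Agent.Lib.Core Cfsg.Agent.Lib.FStar
open scoped commutatorElement

section

variable {G : Type*} [Group G] [Finite G] {p : ℕ} [hp : Fact p.Prime]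

/-- `O_{p'}` of a subgroup is invariant under the normalizer of that subgroup. -/
theorem conj_mem_core_of_normalizer {A : Subgroup G} {c a : G} (hc : c ∈ normalizer (A : Set G))
    (ha : a ∈ (pPrimeCore p A).map A.subtype) : c * a * c⁻¹ ∈ (pPrimeCore p A).map A.subtype := by
  obtain ⟨a₀, ha₀, rfl⟩ := ha
  set φ : A ≃* A := A.normalizerMonoidHom ⟨c, hc⟩ with hφ
  have h1 : φ a₀ ∈ pPrimeCore p A := by
    have h2 : (pPrimeCore p A).map φ.toMonoidHom = pPrimeCore p A := map_pPrimeCore_equiv φ
    rw [← h2]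
    exact ⟨a₀, ha₀, rfl⟩
  exact ⟨φ a₀, h1, rfl⟩

section Invol

variable {H : Subgroup G} {t : G}

theorem sq_mem_of_mem_sup_zpowers (ht : t ^ 2 = 1) (htH : t ∈ normalizer (H : Set G)) {w : G}
    (hw : w ∈ H ⊔ zpowers t) : w ^ 2 ∈ H := by
  have hn : ∀ y ∈ zpowers t, ∀ x ∈ H, y * x * y⁻¹ ∈ H := by
    intro y hy x hx
    have h1 : zpowers t ≤ normalizer (H : Set G) := by
      rw [zpowers_le]; exact htH
    exact (Subgroup.mem_normalizer_iff.1 (h1 hy) x).1 hx
  obtain ⟨y, hy, x, hx, rfl⟩ := mem_sup_of_normalized hn hw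
  obtain ⟨k, rfl⟩ := Subgroup.mem_zpowers_iff.1 hy
  have h2 : (t ^ k) * (t ^ k) = 1 := by
    rw [← zpow_add, ← two_mul, zpow_mul]
    have : t ^ (2 : ℤ) = 1 := by
      rw [show (2 : ℤ) = ((2 : ℕ) : ℤ) by norm_num, zpow_natCast]
      exact ht
    rw [this, one_zpow]
  have h3 : (t ^ k * x) ^ 2 = (t ^ k * x * (t ^ k)⁻¹) * ((t ^ k) * (t ^ k)) * x := by
    rw [pow_two]; group
  rw [h3, h2, mul_one]
  exact mul_mem (hn _ hy x hx) hx

/-- `O(H ⟨t⟩) = 1` if `O(H) = 1`. -/
theorem core_sup_zpowers_eq_bot (hO : pPrimeCore 2 H = ⊥) (ht : t ^ 2 = 1) (htH : t ∈ normalizer (H : Set G)) :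
    pPrimeCore 2 ↥(H ⊔ zpowers t) = ⊥ := by
  classical
  set W : Subgroup G := H ⊔ zpowers t with hW
  have hHW : H ≤ W := le_sup_left
  let ι : H →* W := Subgroup.inclusion hHW
  rw [eq_bot_iff]
  intro o ho
  have h1 : (pPrimeCore 2 W).comap ι ≤ pPrimeCore 2 H := by
    refine le_pPrimeCore (Subgroup.Normal.comap (pPrimeCore_normal 2 W) ι) ?_
    have hinj : Function.Injective ι := Subgroup.inclusion_injective hHW
    have h2 : Nat.card ((pPrimeCore 2 W).comap ι) ∣ Nat.card (pPrimeCore 2 W) := by
      have h3 : ((pPrimeCore 2 W).comap ι).map ι ≤ pPrimeCore 2 W := Subgroup.map_comap_le _ _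
      have h4 := Subgroup.card_dvd_of_le h3
      rwa [Subgroup.card_map_of_injective hinj] at h4
    exact Nat.Coprime.coprime_dvd_left h2 (pPrimeCore_coprime 2 W)
  rw [hO, le_bot_iff] at h1
  have h5 : (o : G) ^ 2 ∈ H := sq_mem_of_mem_sup_zpowers ht htH o.2
  have h6 : (o ^ 2 : W) ∈ pPrimeCore 2 W := pow_mem ho 2
  have h7 : (⟨(o : G) ^ 2, h5⟩ : H) ∈ (pPrimeCore 2 W).comap ι := by
    rw [Subgroup.mem_comap]
    exact h6
  rw [h1, Subgroup.mem_bot] at h7
  have h8 : (o : G) ^ 2 = 1 := congrArg Subtype.val h7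
  have h9 : o ^ 2 ^ 1 = 1 := Subtype.ext (by simpa using h8)
  have h10 := orderOf_coprime_of_mem (pPrimeCore_coprime 2 W) ho
  have h11 := eq_one_of_pow_of_coprime h9 (pow_orderOf_eq_one _) h10
  rw [h11]
  exact one_mem _

/-- A component of `H` is a component of any overgroup `W` in which `H` is normal. -/
theorem component_subgroupOf_of_normal {W : Subgroup G} (hHW : H ≤ W) (hN : W ≤ normalizer (H : Set G))
    {E : Subgroup H} (hE : IsComponent E) : IsComponent ((E.map H.subtype).subgroupOf W) := by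
  haveI hA : (H.subgroupOf W).Normal := by
    constructor
    intro a ha g
    rw [Subgroup.mem_subgroupOf] at ha ⊢
    exact (Subgroup.mem_normalizer_iff.1 (hN g.2) _).1 ha
  let e : H ≃* H.subgroupOf W := (subgroupOfEquivOfLe hHW).symm
  have h1 : IsComponent (E.map e.toMonoidHom) := component_map_equiv e hE
  have h2 := (component_iff_map_subtype (A := H.subgroupOf W) (Subgroup.Normal.isSubnormal hA) _).1 h1
  convert h2 using 1
  ext x
  constructor
  · intro hx
    obtain ⟨e₀, he₀, h⟩ := Subgroup.mem_subgroupOf.1 hx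
    refine ⟨e e₀, ⟨e₀, he₀, rfl⟩, ?_⟩
    apply Subtype.ext
    exact h
  · rintro ⟨_, ⟨e₀, he₀, rfl⟩, rfl⟩
    exact Subgroup.mem_subgroupOf.2 ⟨e₀, he₀, rfl⟩

/-- (S1328) -/
theorem exists_component_core_action (hO : pPrimeCore 2 H = ⊥) (ht : orderOf t = 2)
    (htH : t ∈ normalizer (H : Set G)) {Y : Subgroup G} (hY1 : Y ≠ ⊥)
    (hY : Y ≤ (pPrimeCore 2 ↥(H ⊓ centralizer ({t} : Set G))).map (H ⊓ centralizer ({t} : Set G)).subtype) :
    ∃ E : Subgroup H, IsComponent E ∧ (E.map H.subtype).map (MulAut.conj t).toMonoidHom = E.map H.subtype ∧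
      Y ≤ normalizer ((E.map H.subtype : Subgroup G) : Set G) ∧
      ¬ (t ∈ centralizer ((E.map H.subtype : Subgroup G) : Set G)) ∧
      ¬ (Y ≤ centralizer ((E.map H.subtype : Subgroup G) : Set G)) := by
  classical
  have ht2 : t ^ 2 = 1 := by
    rw [← ht, pow_orderOf_eq_one]
  set W : Subgroup G := H ⊔ zpowers t with hWdef
  have hHW : H ≤ W := le_sup_left
  have htW : t ∈ W := (le_sup_right : zpowers t ≤ W) (mem_zpowers t)
  have hWN : W ≤ normalizer (H : Set G) := by
    refine sup_le Subgroup.le_normalizer ?_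
    rw [zpowers_le]
    exact htH
  have hOW : pPrimeCore 2 W = ⊥ := core_sup_zpowers_eq_bot hO ht2 htH
  set t' : W := ⟨t, htW⟩ with ht'
  have ht'o : orderOf t' = 2 := by
    rw [ht', Subgroup.orderOf_mk]
    exact ht
  have ht'2 : t' ^ 2 = 1 := by
    rw [← ht'o, pow_orderOf_eq_one]
  -- the `O(C_H(t))` sits in `O(C_W(t'))`
  have hYN : ∀ y ∈ Y, y ∈ H ∧ y ∈ centralizer ({t} : Set G) := by
    intro y hy
    obtain ⟨y₀, _, rfl⟩ := hY hy
    exact y₀.2
  have hcore : ∀ y (hy : y ∈ Y), (⟨y, hHW (hYN y hy).1⟩ : W) ∈ centralizerPPrimeCore 2 t' := by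
    intro y hy
    set CW := centralizer ({t'} : Set W) with hCW
    set Q : Subgroup CW := ((pPrimeCore 2 ↥(H ⊓ centralizer ({t} : Set G))).map
      (H ⊓ centralizer ({t} : Set G)).subtype).comap (W.subtype.comp CW.subtype) with hQ
    have hQn : Q.Normal := by
      constructor
      intro a ha c
      rw [hQ, Subgroup.mem_comap] at ha ⊢
      have hcN : ((c : W) : G) ∈ normalizer ((H ⊓ centralizer ({t} : Set G) : Subgroup G) : Set G) := by
        rw [mem_normalizer_iff_conjS, conjS_inf]
        have h1 : conjS ((c : W) : G) H = H := mem_normalizer_iff_conjS.1 (hWN (c : W).2)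
        have h2 : ((c : W) : G) * t = t * ((c : W) : G) := by
          have h3 : (c : W) * t' = t' * (c : W) := Subgroup.mem_centralizer_singleton_iff.1 c.2
          exact congrArg Subtype.val h3
        have h4 : conjS ((c : W) : G) (centralizer ({t} : Set G)) = centralizer ({t} : Set G) := by
          rw [← conj_centralizer]
          congr 1
          ext z
          simp [h2]
        rw [h1, h4]
      have h5 := conj_mem_core_of_normalizer (p := 2) hcN ha
      simpa using h5
    have hQc : (Nat.card Q).Coprime 2 := by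
      have hinj : Function.Injective (W.subtype.comp CW.subtype) :=
        W.subtype_injective.comp CW.subtype_injective
      have h3 : Q.map (W.subtype.comp CW.subtype) ≤ (pPrimeCore 2 ↥(H ⊓ centralizer ({t} : Set G))).map
          (H ⊓ centralizer ({t} : Set G)).subtype := Subgroup.map_comap_le _ _
      have h4 := Subgroup.card_dvd_of_le h3
      rw [Subgroup.card_map_of_injective hinj,
        Subgroup.card_map_of_injective (Subgroup.subtype_injective _)] at h4
      exact Nat.Coprime.coprime_dvd_left h4 (pPrimeCore_coprime 2 _)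
    have hQle : Q ≤ pPrimeCore 2 CW := le_pPrimeCore hQn hQc
    have hyCW : (⟨y, hHW (hYN y hy).1⟩ : W) ∈ CW := by
      rw [hCW, Subgroup.mem_centralizer_singleton_iff]
      apply Subtype.ext
      exact Subgroup.mem_centralizer_singleton_iff.1 (hYN y hy).2
    refine ⟨⟨_, hyCW⟩, hQle ?_, rfl⟩
    rw [hQ, Subgroup.mem_comap]
    exact hY hy
  by_contra hcon
  push Not at hcon
  -- `Y` centralizes every component of `H`
  have hYE : ∀ E : Subgroup H, IsComponent E → Y ≤ centralizer ((E.map H.subtype : Subgroup G) : Set G) := by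
    intro E hE
    have hE₁ : IsComponent ((E.map H.subtype).subgroupOf W) := component_subgroupOf_of_normal hHW hWN hE
    set E₁ : Subgroup W := (E.map H.subtype).subgroupOf W with hE₁def
    have hEW : E.map H.subtype ≤ W := (Subgroup.map_subtype_le E).trans hHW
    have hNorm : Y ≤ normalizer ((E.map H.subtype : Subgroup G) : Set G) := by
      intro y hy
      have h1 := centralizerPPrimeCore_le_compNorm (p := 2) hOW ht'2 (hcore y hy)
      have h2 := (Subgroup.mem_iInf.1 h1) ⟨E₁, hE₁⟩
      rw [Subgroup.mem_normalizer_iff] at h2 ⊢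
      intro z
      constructor
      · intro hz
        have hzW : z ∈ W := hEW hz
        have h3 := (h2 ⟨z, hzW⟩).1 (Subgroup.mem_subgroupOf.2 hz)
        exact Subgroup.mem_subgroupOf.1 h3
      · intro hz
        have hyW : y ∈ W := hHW (hYN y hy).1
        have hzW : z ∈ W := by
          have h4 : y * z * y⁻¹ ∈ W := hEW hz
          have h5 : z = y⁻¹ * (y * z * y⁻¹) * y := by group
          rw [h5]
          exact mul_mem (mul_mem (inv_mem hyW) h4) hyW
        have h3 := (h2 ⟨z, hzW⟩).2 (Subgroup.mem_subgroupOf.2 hz)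
        exact Subgroup.mem_subgroupOf.1 h3
    by_cases htn : (E.map H.subtype).map (MulAut.conj t).toMonoidHom = E.map H.subtype
    · by_cases htc : t ∈ centralizer ((E.map H.subtype : Subgroup G) : Set G)
      · -- `t` centralizes `E`
        have hne : ⁅E₁, zpowers t'⁆ ≠ E₁ := by
          have h1 : ⁅E₁, zpowers t'⁆ = ⊥ := by
            rw [Subgroup.commutator_eq_bot_iff_le_centralizer, Subgroup.le_centralizer_iff, zpowers_le,
              Subgroup.mem_centralizer_iff]
            intro a ha
            apply Subtype.ext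
            exact (Subgroup.mem_centralizer_iff.1 htc) _ (Subgroup.mem_subgroupOf.1 ha)
          rw [h1]
          exact (qs_subgroup_ne_bot hE₁.2).symm
        have h2 := comm_centralizerPPrimeCore (p := 2) hOW hE₁ ht'o hne
        intro y hy
        rw [Subgroup.mem_centralizer_iff]
        intro a ha
        have h3 := mul_comm_of_commutator_eq_bot h2 (a := (⟨a, hEW ha⟩ : W))
          (Subgroup.mem_subgroupOf.2 ha) (hcore y hy)
        exact congrArg Subtype.val h3
      · exact hcon E hE htn hNorm htc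
    · -- `t` moves `E`
      have hne : ⁅E₁, zpowers t'⁆ ≠ E₁ := by
        intro heq
        apply htn
        have hle : (E.map H.subtype).map (MulAut.conj t).toMonoidHom ≤ E.map H.subtype := by
          rintro _ ⟨a, ha, rfl⟩
          have h1 : (⟨a, hEW ha⟩ : W) ∈ E₁ := Subgroup.mem_subgroupOf.2 ha
          have h2 : ⁅(⟨a, hEW ha⟩ : W)⁻¹, t'⁆ ∈ ⁅E₁, zpowers t'⁆ :=
            Subgroup.commutator_mem_commutator (inv_mem h1) (mem_zpowers t')
          rw [heq] at h2
          have h3 : (⟨a, hEW ha⟩ : W) * ⁅(⟨a, hEW ha⟩ : W)⁻¹, t'⁆ ∈ E₁ := mul_mem h1 h2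
          have h4 := Subgroup.mem_subgroupOf.1 h3
          have h5 : ((⟨a, hEW ha⟩ : W) * ⁅(⟨a, hEW ha⟩ : W)⁻¹, t'⁆ : W).1 = t * a * t⁻¹ := by
            simp [commutatorElement_def, ht']
            group
          rw [h5] at h4
          exact h4
        refine le_antisymm hle ?_
        have h6 : Nat.card ((E.map H.subtype).map (MulAut.conj t).toMonoidHom) = Nat.card (E.map H.subtype) :=
          card_conjS t _
        exact (Subgroup.eq_of_le_of_card_ge hle (le_of_eq h6.symm)).ge
      have h2 := comm_centralizerPPrimeCore (p := 2) hOW hE₁ ht'o hne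
      intro y hy
      rw [Subgroup.mem_centralizer_iff]
      intro a ha
      have h3 := mul_comm_of_commutator_eq_bot h2 (a := (⟨a, hEW ha⟩ : W))
        (Subgroup.mem_subgroupOf.2 ha) (hcore y hy)
      exact congrArg Subtype.val h3
  apply hY1
  rw [eq_bot_iff]
  intro y hy
  have hyH := (hYN y hy).1
  set y₁ : H := ⟨y, hyH⟩ with hy₁
  -- `y₁` centralizes `F*(H)`
  have hF : ∀ z ∈ fittingSubgroup H, y₁ * z = z * y₁ := by
    intro z hz
    rw [fitting_eq_pCore_of_pPrimeCore_bot hO] at hz
    -- `O_2(H) ≤ O_2(W)`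
    haveI hA : (H.subgroupOf W).Normal := by
      constructor
      intro a ha g
      rw [Subgroup.mem_subgroupOf] at ha ⊢
      exact (Subgroup.mem_normalizer_iff.1 (hWN g.2) _).1 ha
    let e : H ≃* H.subgroupOf W := (subgroupOfEquivOfLe hHW).symm
    have h1 : (pCore 2 H).map e.toMonoidHom = pCore 2 (H.subgroupOf W) := map_pCore_equiv e
    have h2 : e z ∈ pCore 2 (H.subgroupOf W) := by
      rw [← h1]
      exact ⟨z, hz, rfl⟩
    have h3 : ((e z : H.subgroupOf W) : W) ∈ pCore 2 W :=
      pCore_map_le_of_subnormal 2 (Subgroup.Normal.isSubnormal hA) ⟨e z, h2, rfl⟩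
    have h4 := centralizerPPrimeCore_commute_pCore (p := 2) ht'2 (hcore y hy) h3
    apply Subtype.ext
    have h5 := congrArg Subtype.val h4
    exact h5
  have hE : ∀ a ∈ layer H, y₁ * a = a * y₁ := by
    have h1 : layer H ≤ centralizer ({y₁} : Set H) := by
      unfold layer
      refine sSup_le ?_
      intro E hE a ha
      rw [Subgroup.mem_centralizer_singleton_iff]
      have h2 := (Subgroup.mem_centralizer_iff.1 (hYE E hE hy)) (a : G) ⟨a, ha, rfl⟩
      exact Subtype.ext h2
    intro a ha
    have h2 := h1 ha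
    rw [Subgroup.mem_centralizer_singleton_iff] at h2
    exact h2.symm
  have hc : y₁ ∈ centralizer (generalizedFittingSubgroup H : Set H) := by
    have h1 : generalizedFittingSubgroup H ≤ centralizer ({y₁} : Set H) := by
      refine sup_le ?_ ?_
      · intro a ha
        rw [Subgroup.mem_centralizer_singleton_iff]
        exact (hE a ha).symm
      · intro a ha
        rw [Subgroup.mem_centralizer_singleton_iff]
        exact (hF a ha).symm
    rw [Subgroup.mem_centralizer_iff]
    intro a ha
    have h2 := h1 ha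
    rw [Subgroup.mem_centralizer_singleton_iff] at h2
    exact h2
  have hgen : y₁ ∈ generalizedFittingSubgroup H := centralizer_gen_le hc
  -- so `y₁` lies in the centre of `F*(H)`, hence in `F(H) = O_2(H)`
  have hZ : y₁ ∈ fittingSubgroup H := by
    have hZn : ((center (generalizedFittingSubgroup H)).map (generalizedFittingSubgroup H).subtype).Normal :=
      ConjAct.normal_of_characteristic_of_normal
    have hZnil : Group.IsNilpotent ((center (generalizedFittingSubgroup H)).map (generalizedFittingSubgroup H).subtype) := by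
      let e := (center (generalizedFittingSubgroup H)).equivMapOfInjective _ (generalizedFittingSubgroup H).subtype_injective
      haveI := isNilpotent_center (generalizedFittingSubgroup H)
      exact Group.nilpotent_of_mulEquiv e
    refine le_fittingSubgroup hZn hZnil ?_
    rw [mem_center_map_iff]
    refine ⟨hgen, ?_⟩
    intro a ha
    exact (Subgroup.mem_centralizer_iff.1 hc) a ha
  rw [fitting_eq_pCore_of_pPrimeCore_bot hO] at hZ
  -- a `2`-element of odd order
  obtain ⟨y₀, hy₀, hy₀e⟩ := hY hy
  have h5 := orderOf_coprime_of_mem (pPrimeCore_coprime 2 _) hy₀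
  obtain ⟨k, hk⟩ := (pCore_isPGroup 2 H) ⟨y₁, hZ⟩
  have hk' : y ^ 2 ^ k = 1 := by
    have := congrArg (fun z => ((z : H) : G)) (congrArg Subtype.val hk)
    simpa [hy₁] using this
  have h6 : (orderOf y).Coprime 2 := by
    rw [← hy₀e]
    simpa [Subgroup.orderOf_coe] using h5
  have h7 := eq_one_of_pow_of_coprime hk' (pow_orderOf_eq_one _) h6
  rw [h7]
  exact one_mem _

end Invol

end

end Cfsg.Agent.Lib.Techniques
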