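import Mathlib
import Cfsg.Prelude.Def_Balance
import Cfsg.Agent.Lib.Techniques.Balance2
import Cfsg.Agent.Lib.Techniques.LocalBal
import Cfsg.Agent.Lib.Core.Subnormal
import Cfsg.Agent.Lib.Cl.PComp2

/-!
# The extended 2-layer `L*_{2'}(X)`
-/

set_option autoImplicit false
set_option linter.unusedSectionVars false
set_option linter.unusedVariables false
set_option linter.style.haveILetI false

namespace Cfsg.Agent.Lib.Techniques

open Subgroup Cfsg Cfsg.Agent.Lib.Core Cfsg.Agent.Lib.FStar Cfsg.Agent.Lib.Cl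
open scoped commutatorElement

section Ext

variable {X : Type*} [Group X] [Finite X]

/-- `O(C_X(S))` as a subgroup of `X`. -/
def oddC (S : Subgroup X) : Subgroup X :=
  (oddCore (centralizer (S : Set X))).map (centralizer (S : Set X)).subtype

theorem oddC_le_centralizer (S : Subgroup X) : oddC S ≤ centralizer (S : Set X) :=
  map_subtype_le _

theorem oddC_conj {S : Subgroup X} {c d : X} (hc : c ∈ centralizer (S : Set X)) (hd : d ∈ oddC S) :
    c * d * c⁻¹ ∈ oddC S := by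
  obtain ⟨y, hy, rfl⟩ := hd
  refine ⟨⟨c, hc⟩ * y * ⟨c, hc⟩⁻¹, (pPrimeCore_normal 2 _).conj_mem y hy _, ?_⟩
  simp

theorem card_oddC (S : Subgroup X) : (Nat.card (oddC S)).Coprime 2 := by
  unfold oddC
  rw [Subgroup.card_map_of_injective (Subgroup.subtype_injective _)]
  exact pPrimeCore_coprime 2 _

theorem conj_oddC_le (g : X) (S : Subgroup X) : conjS g (oddC S) ≤ oddC (conjS g S) := by
  classical
  set C' : Subgroup X := centralizer ((conjS g S : Subgroup X) : Set X) with hC'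
  set Q : Subgroup C' := (conjS g (oddC S)).subgroupOf C' with hQ
  have hC'' : C' = conjS g (centralizer (S : Set X)) := conj_centralizer_subgroup g S
  have hsub : conjS g (oddC S) ≤ C' := by
    rw [hC'']
    exact conjS_mono g (oddC_le_centralizer S)
  have hQn : Q.Normal := by
    constructor
    intro q hq c
    rw [hQ, Subgroup.mem_subgroupOf] at hq ⊢
    have hc : (c : X) ∈ conjS g (centralizer (S : Set X)) := hC'' ▸ c.2
    rw [mem_conjS] at hc hq ⊢
    have h1 := oddC_conj hc hq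
    have h2 : g⁻¹ * ((c : X) * (q : X) * (c : X)⁻¹) * g =
        (g⁻¹ * (c : X) * g) * (g⁻¹ * (q : X) * g) * (g⁻¹ * (c : X) * g)⁻¹ := by group
    simp only [Subgroup.coe_mul, Subgroup.coe_inv]
    rw [h2]
    exact h1
  have hQc : (Nat.card Q).Coprime 2 := by
    have h1 : Q.map C'.subtype ≤ conjS g (oddC S) := by
      rintro _ ⟨x, hx, rfl⟩
      exact Subgroup.mem_subgroupOf.1 hx
    have h2 := Subgroup.card_dvd_of_le h1
    rw [Subgroup.card_map_of_injective C'.subtype_injective, card_conjS] at h2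
    exact Nat.Coprime.coprime_dvd_left h2 (card_oddC S)
  have hle := le_pPrimeCore hQn hQc
  intro y hy
  refine ⟨⟨y, hsub hy⟩, hle (Subgroup.mem_subgroupOf.2 hy), rfl⟩

theorem conj_oddC (g : X) (S : Subgroup X) : conjS g (oddC S) = oddC (conjS g S) := by
  refine le_antisymm (conj_oddC_le g S) ?_
  have h1 := conj_oddC_le g⁻¹ (conjS g S)
  rw [conjS_inv_conjS] at h1
  have h2 := conjS_mono g h1
  rwa [conjS_conjS_inv] at h2

theorem oddCore_le_pPrimePCore : oddCore X ≤ pPrimePCore 2 X := by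
  intro x hx
  show QuotientGroup.mk' (pPrimeCore 2 X) x ∈ pCore 2 (X ⧸ pPrimeCore 2 X)
  have h : QuotientGroup.mk' (pPrimeCore 2 X) x = 1 := (QuotientGroup.eq_one_iff x).2 hx
  rw [h]
  exact one_mem _

theorem normal_pPrimePCore : (pPrimePCore 2 X).Normal :=
  (pCore_normal 2 _).comap _

theorem normal_upper : (pLayer 2 X ⊔ pPrimePCore 2 X).Normal := by
  haveI := normal_pPrimePCore (X := X)
  haveI : (pLayer 2 X).Normal := pLayer_normal'
  infer_instance

theorem normal_lower : (pLayer 2 X ⊔ oddCore X).Normal := by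
  haveI : (pLayer 2 X).Normal := pLayer_normal'
  haveI : (oddCore X).Normal := pPrimeCore_normal 2 X
  infer_instance

theorem lower_le_upper : pLayer 2 X ⊔ oddCore X ≤ pLayer 2 X ⊔ pPrimePCore 2 X :=
  sup_le_sup_left oddCore_le_pPrimePCore _

theorem pow_mem_lower {u : X} (hu : u ∈ pLayer 2 X ⊔ pPrimePCore 2 X) :
    ∃ k : ℕ, u ^ 2 ^ k ∈ pLayer 2 X ⊔ oddCore X := by
  haveI := normal_pPrimePCore (X := X)
  haveI hV := normal_lower (X := X)
  obtain ⟨l, hl, w, hw, rfl⟩ := mem_sup_of_normal_right.1 hu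
  have hw' : QuotientGroup.mk' (pPrimeCore 2 X) w ∈ pCore 2 (X ⧸ pPrimeCore 2 X) := hw
  obtain ⟨k, hk⟩ := (pCore_isPGroup 2 (X ⧸ pPrimeCore 2 X)) ⟨_, hw'⟩
  have hk1 : (QuotientGroup.mk' (pPrimeCore 2 X) w) ^ 2 ^ k = 1 := congrArg Subtype.val hk
  have hk2 : w ^ 2 ^ k ∈ oddCore X := by
    rw [← map_pow] at hk1
    exact (QuotientGroup.eq_one_iff _).1 hk1
  refine ⟨k, ?_⟩
  set ψ := QuotientGroup.mk' (pLayer 2 X ⊔ oddCore X) with hψ
  have h1 : ψ (l * w) = ψ w := by
    have h0 : ψ l = 1 := (QuotientGroup.eq_one_iff l).2 (le_sup_left (a := pLayer 2 X) hl)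
    rw [map_mul, h0, one_mul]
  have h2 : ψ ((l * w) ^ 2 ^ k) = 1 := by
    rw [map_pow, h1, ← map_pow]
    exact (QuotientGroup.eq_one_iff _).2 (le_sup_right (b := oddCore X) hk2)
  exact (QuotientGroup.eq_one_iff _).1 h2

theorem upper_le_sup_sylow {T : Subgroup X} (hT : SylowIn 2 T (pLayer 2 X ⊔ pPrimePCore 2 X)) :
    pLayer 2 X ⊔ pPrimePCore 2 X ≤ (pLayer 2 X ⊔ oddCore X) ⊔ T := by
  classical
  set U := pLayer 2 X ⊔ pPrimePCore 2 X with hU
  set V := pLayer 2 X ⊔ oddCore X with hV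
  have hVU : V ≤ U := lower_le_upper
  haveI hVn : V.Normal := normal_lower
  set W := V ⊔ T with hW
  have hWU : W ≤ U := sup_le hVU hT.1
  have h1 : W.relIndex U ∣ T.relIndex U := by
    rw [← Subgroup.relIndex_mul_relIndex T W U le_sup_right hWU]
    exact dvd_mul_left _ _
  have h2 : W.relIndex U ∣ V.relIndex U := by
    rw [← Subgroup.relIndex_mul_relIndex V W U le_sup_left hWU]
    exact dvd_mul_left _ _
  have h3 : IsPGroup 2 (U ⧸ V.subgroupOf U) := by
    intro q
    obtain ⟨u, rfl⟩ := QuotientGroup.mk'_surjective (V.subgroupOf U) q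
    obtain ⟨k, hk⟩ := pow_mem_lower u.2
    refine ⟨k, ?_⟩
    rw [← map_pow]
    refine (QuotientGroup.eq_one_iff _).2 (Subgroup.mem_subgroupOf.2 ?_)
    simpa using hk
  obtain ⟨n, hn⟩ := IsPGroup.iff_card.1 h3
  have h4 : V.relIndex U = 2 ^ n := hn
  rw [h4] at h2
  obtain ⟨m, _, hm⟩ := (Nat.dvd_prime_pow Nat.prime_two).1 h2
  have h5 : W.relIndex U = 1 := by
    rcases m with _ | m
    · simpa using hm
    · exfalso
      apply hT.2.2
      refine dvd_trans ?_ h1
      rw [hm, pow_succ]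
      exact dvd_mul_left _ _
  exact Subgroup.relIndex_eq_one.1 h5

theorem oddC_le_of_sylow {T T' : Subgroup X} (hT : SylowIn 2 T (pLayer 2 X ⊔ pPrimePCore 2 X))
    (hT' : SylowIn 2 T' (pLayer 2 X ⊔ pPrimePCore 2 X)) : oddC T' ≤ (pLayer 2 X ⊔ oddCore X) ⊔ oddC T := by
  classical
  haveI hVn : (pLayer 2 X ⊔ oddCore X).Normal := normal_lower
  obtain ⟨u, hu, huT⟩ := hT.exists_conj_eq hT'
  obtain ⟨v, hv, t, ht, rfl⟩ := mem_sup_of_normal_left.1 (upper_le_sup_sylow hT hu)
  rw [conjS_mul, conjS_eq_of_mem ht] at huT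
  subst huT
  intro d hd
  rw [← conj_oddC] at hd
  obtain ⟨f, hf, rfl⟩ := hd
  have h1 : (MulAut.conj v).toMonoidHom f = (v * (f * v⁻¹ * f⁻¹)) * f := by
    show v * f * v⁻¹ = _
    group
  rw [h1]
  refine mul_mem (le_sup_left (a := pLayer 2 X ⊔ oddCore X) (mul_mem hv (hVn.conj_mem _ (inv_mem hv) f)))
    (le_sup_right (b := oddC T) hf)

/-- `S1341` in subgroup form. -/
theorem extendedTwoLayer_eq (T : Sylow 2 ↥(pLayer 2 X ⊔ pPrimePCore 2 X)) :
    extendedTwoLayer X = pLayer 2 X ⊔ oddCore X ⊔ oddC ((T : Subgroup ↥(pLayer 2 X ⊔ pPrimePCore 2 X)).map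
      (pLayer 2 X ⊔ pPrimePCore 2 X).subtype) := by
  apply le_antisymm
  · refine sup_le le_sup_left (iSup_le fun T' => ?_)
    exact oddC_le_of_sylow (sylowIn_of_sylow T) (sylowIn_of_sylow T')
  · refine sup_le le_sup_left ?_
    exact le_sup_of_le_right (le_iSup (fun T' : Sylow 2 ↥(pLayer 2 X ⊔ pPrimePCore 2 X) =>
      oddC ((T' : Subgroup ↥(pLayer 2 X ⊔ pPrimePCore 2 X)).map (pLayer 2 X ⊔ pPrimePCore 2 X).subtype)) T)

theorem extendedTwoLayer_eq' {T : Subgroup X} (hT : SylowIn 2 T (pLayer 2 X ⊔ pPrimePCore 2 X)) :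
    extendedTwoLayer X = pLayer 2 X ⊔ oddCore X ⊔ oddC T := by
  have h1 := extendedTwoLayer_eq hT.toSylow
  have h2 : ((hT.toSylow : Subgroup ↥(pLayer 2 X ⊔ pPrimePCore 2 X)).map
      (pLayer 2 X ⊔ pPrimePCore 2 X).subtype) = T := by
    rw [SylowIn.coe_toSylow]
    exact Subgroup.map_subgroupOf_eq_of_le hT.1
  rw [h2] at h1
  exact h1

/-- (S1342) -/
theorem extendedTwoLayer_normal : (extendedTwoLayer X).Normal := by
  classical
  obtain ⟨T, hT⟩ := exists_sylowIn (p := 2) (pLayer 2 X ⊔ pPrimePCore 2 X)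
  haveI hVn : (pLayer 2 X ⊔ oddCore X).Normal := normal_lower
  haveI hUn : (pLayer 2 X ⊔ pPrimePCore 2 X).Normal := normal_upper
  rw [extendedTwoLayer_eq' hT]
  constructor
  intro e he g
  have hle : pLayer 2 X ⊔ oddCore X ⊔ oddC T ≤
      (pLayer 2 X ⊔ oddCore X ⊔ oddC T).comap (MulAut.conj g).toMonoidHom := by
    refine sup_le ?_ ?_
    · intro v hv
      exact le_sup_left (a := pLayer 2 X ⊔ oddCore X) (hVn.conj_mem v hv g)
    · intro d hd
      have h1 : g * d * g⁻¹ ∈ oddC (conjS g T) := by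
        rw [← conj_oddC]
        exact conj_mem_conjS hd
      have h2 : SylowIn 2 (conjS g T) (pLayer 2 X ⊔ pPrimePCore 2 X) := by
        have h3 := hT.conj g
        have h4 : conjS g (pLayer 2 X ⊔ pPrimePCore 2 X) = pLayer 2 X ⊔ pPrimePCore 2 X :=
          mem_normalizer_iff_conjS.1 (by rw [Subgroup.normalizer_eq_top]; trivial)
        rwa [h4] at h3
      exact oddC_le_of_sylow hT h2 h1
  exact hle he

/-- A Sylow `2`-subgroup of `U` extends to a Sylow subgroup of `X` that normalizes it. -/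
theorem exists_sylow_normalizing {T : Subgroup X} (hT : SylowIn 2 T (pLayer 2 X ⊔ pPrimePCore 2 X)) :
    ∃ S : Sylow 2 X, T = (S : Subgroup X) ⊓ (pLayer 2 X ⊔ pPrimePCore 2 X) := by
  classical
  haveI hUn : (pLayer 2 X ⊔ pPrimePCore 2 X).Normal := normal_upper
  obtain ⟨S₁, hTS, hS₁⟩ := exists_sylowIn_ge (p := 2) (le_top : T ≤ ⊤) hT.2.1
  obtain ⟨S, hS⟩ := hS₁.of_top
  refine ⟨S, ?_⟩
  rw [hS]
  have h1 : SylowIn 2 (S₁ ⊓ (pLayer 2 X ⊔ pPrimePCore 2 X)) (pLayer 2 X ⊔ pPrimePCore 2 X) :=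
    hS₁.inf_of_normal le_top (by rw [Subgroup.normalizer_eq_top])
  exact (hT.eq_of_le (le_inf hTS hT.1) inf_le_right h1.2.1).symm

theorem card_sup_dvd_of_normal (N K : Subgroup X) [N.Normal] : Nat.card (N ⊔ K : Subgroup X) ∣ Nat.card N * Nat.card K := by
  have h1 := relIndex_mul_card_inf N (N ⊔ K)
  rw [inf_sup_self] at h1
  rw [← h1, Subgroup.relIndex_sup_left, mul_comm]
  exact Nat.mul_dvd_mul_left _ (Subgroup.relIndex_dvd_card N K)

/-- (S1343) -/
theorem exists_odd_extendedTwoLayer : ∃ F : Subgroup X, Odd (Nat.card F) ∧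
    (∃ S : Sylow 2 X, (S : Subgroup X) ≤ normalizer (F : Set X)) ∧
      extendedTwoLayer X = pLayer 2 X ⊔ F := by
  classical
  obtain ⟨T, hT⟩ := exists_sylowIn (p := 2) (pLayer 2 X ⊔ pPrimePCore 2 X)
  obtain ⟨S, hS⟩ := exists_sylow_normalizing hT
  haveI hOn : (oddCore X).Normal := pPrimeCore_normal 2 X
  haveI hUn : (pLayer 2 X ⊔ pPrimePCore 2 X).Normal := normal_upper
  refine ⟨oddCore X ⊔ oddC T, ?_, ⟨S, ?_⟩, ?_⟩
  · have h1 := card_sup_dvd_of_normal (oddCore X) (oddC T)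
    have h2 : (Nat.card (oddCore X) * Nat.card (oddC T)).Coprime 2 :=
      Nat.Coprime.mul_left (pPrimeCore_coprime 2 X) (card_oddC T)
    have h3 := Nat.Coprime.coprime_dvd_left h1 h2
    exact Nat.Coprime.odd_of_right h3
  · intro s hs
    rw [mem_normalizer_iff_conjS]
    have hU : conjS s (pLayer 2 X ⊔ pPrimePCore 2 X) = pLayer 2 X ⊔ pPrimePCore 2 X :=
      mem_normalizer_iff_conjS.1 (by rw [Subgroup.normalizer_eq_top]; trivial)
    have h1 : conjS s T = T := by
      rw [hS, conjS_inf, conjS_eq_of_mem hs, hU]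
    have h2 : conjS s (oddCore X) = oddCore X :=
      mem_normalizer_iff_conjS.1 (by rw [Subgroup.normalizer_eq_top]; trivial)
    show (oddCore X ⊔ oddC T).map _ = _
    rw [Subgroup.map_sup]
    have h3 : (oddC T).map (MulAut.conj s).toMonoidHom = oddC T := by
      have h4 := conj_oddC s T
      rw [h1] at h4
      exact h4
    rw [h3]
    exact congrArg (· ⊔ oddC T) h2
  · rw [extendedTwoLayer_eq' hT, sup_assoc]

theorem oddC_le_normalizer_pComp {K : Subgroup X} (hK : IsPComponent 2 K) {T : Subgroup X}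
    (hT : SylowIn 2 T (pLayer 2 X ⊔ pPrimePCore 2 X)) : oddC T ≤ normalizer (K : Set X) := by
  classical
  intro d hd
  rw [mem_normalizer_iff_conjS]
  by_contra hne
  have hKU : K ≤ pLayer 2 X ⊔ pPrimePCore 2 X := (pComponent_le_pLayer hK).trans le_sup_left
  obtain ⟨S, hS⟩ := exists_sylow_normalizing hT
  have hidx : ¬ 2 ∣ (S : Subgroup X).relIndex K :=
    not_dvd_relIndex_of_subnormal (S : Subgroup X) K hK.1 S.not_dvd_index
  set T₀ : Subgroup X := T ⊓ K with hT₀
  have hT₀eq : T₀ = (S : Subgroup X) ⊓ K := by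
    rw [hT₀, hS, inf_assoc, inf_eq_right.2 hKU]
  have hidx' : ¬ 2 ∣ T₀.relIndex K := by
    rw [hT₀eq, Subgroup.inf_relIndex_right]
    exact hidx
  have hdT : ∀ t ∈ T, t * d = d * t := fun t ht =>
    (Subgroup.mem_centralizer_iff.1 (oddC_le_centralizer T hd)) t ht
  have hK' : IsPComponent 2 (conjS d K) := pComp_map_equiv (MulAut.conj d) hK
  have hT₀K' : T₀ ≤ conjS d K := by
    intro t ht
    have h1 : d * t * d⁻¹ ∈ conjS d K := conj_mem_conjS ht.2
    rwa [← hdT t ht.1, mul_inv_cancel_right] at h1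
  have hcom := (pComponent_commutator_le hK hK' (Ne.symm hne)).1
  have hcomO : ∀ k ∈ K, ∀ t ∈ T₀, ⁅k, t⁆ ∈ oddCore X := by
    intro k hk t ht
    have h1 : ⁅k, t⁆ ∈ ⁅K, conjS d K⁆ := Subgroup.commutator_mem_commutator hk (hT₀K' ht)
    have h2 := (hcom h1).1
    rw [pPrimeCore_map_eq_inf hK.1] at h2
    exact h2.2
  set π := QuotientGroup.mk' (pPrimeCore 2 X) with hπ
  set Kb : Subgroup (X ⧸ pPrimeCore 2 X) := K.map π with hKb
  have hKb' : IsComponent Kb := hK.2.1
  have hdvd := dvd_card_quotient_center_of_component 2 pPrimeCore_quotient_eq_bot hKb'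
  let f : K →* Kb := π.subgroupMap K
  have hf : Function.Surjective f := π.subgroupMap_surjective K
  set H₀ : Subgroup K := T₀.subgroupOf K with hH₀
  have hcen : H₀.map f ≤ center Kb := by
    rintro _ ⟨t, ht, rfl⟩
    refine Subgroup.mem_center_iff.2 fun g => ?_
    obtain ⟨k, rfl⟩ := hf g
    apply Subtype.ext
    show π k * π t = π t * π k
    have h1 := hcomO k k.2 t (Subgroup.mem_subgroupOf.1 ht)
    have h2 : π ⁅(k : X), (t : X)⁆ = 1 := (QuotientGroup.eq_one_iff _).2 h1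
    rw [commutatorElement_def, map_mul, map_mul, map_mul, map_inv, map_inv] at h2
    calc π k * π t = (π k * π t * (π k)⁻¹ * (π t)⁻¹) * (π t * π k) := by group
      _ = π t * π k := by rw [h2, one_mul]
  have h1 : (center Kb).index ∣ (H₀.map f).index := Subgroup.index_dvd_of_le hcen
  have h2 : (H₀.map f).index ∣ H₀.index := Subgroup.index_map_dvd H₀ hf
  apply hidx'
  have h3 : 2 ∣ (center Kb).index := hdvd
  exact h3.trans (h1.trans h2)

/-- (S1344) -/
theorem pComp_normal_extended {K : Subgroup X} (hK : IsPComponent 2 K) :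
    K ≤ extendedTwoLayer X ∧ (K.subgroupOf (extendedTwoLayer X)).Normal := by
  classical
  refine ⟨(pComponent_le_pLayer hK).trans (le_sup_of_le_left le_sup_left), ?_⟩
  have hN : extendedTwoLayer X ≤ normalizer (K : Set X) := by
    refine sup_le (sup_le ?_ ?_) (iSup_le fun T => ?_)
    · exact sSup_le fun J hJ => pComponent_le_normalizer hK hJ
    · intro y hy
      apply mem_normalizer_of_conj_le
      refine pComp_conj_mem hK fun k hk => ?_
      have h1 : y * k * y⁻¹ * k⁻¹ = y * (k * y⁻¹ * k⁻¹) := by group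
      rw [h1]
      exact mul_mem hy ((pPrimeCore_normal 2 X).conj_mem _ (inv_mem hy) k)
    · exact oddC_le_normalizer_pComp hK (sylowIn_of_sylow T)
  constructor
  intro a ha g
  rw [Subgroup.mem_subgroupOf] at ha ⊢
  exact (mem_normalizer_iff.1 (hN g.2) _).1 ha

end Ext

end Cfsg.Agent.Lib.Techniques
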