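import Cfsg.Agent.Lib.Techniques.StrongMain
import Cfsg.Agent.Lib.Techniques.MinFailInd
import Mathlib

/-! Factorizations `G = N(W₁(S)) N(W₂(S))` and control of strong fusion. -/

set_option autoImplicit false
set_option linter.style.haveILetI false

namespace Cfsg.Agent.Lib.Techniques

open Cfsg
open scoped commutatorElement

universe u

section Factor

variable {p : ℕ} [hp : Fact p.Prime]

/-- A factorization through two normalizers containing a Sylow subgroup gives a two-step chain. -/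
theorem family_of_factorization {X : Type u} [Group X] [Finite X]
    {W₁ W₂ : ∀ (Q : Type u) [Group Q], Subgroup Q} (hW₁ : IsCharPFunctor.{u} p W₁) (hW₂ : IsCharPFunctor.{u} p W₂)
    (T : Sylow p X)
    (hfac : ∀ x : X, ∃ a ∈ Subgroup.normalizer ((inducedFunctor (G := X) W₁ (T : Subgroup X) : Subgroup X) : Set X),
      ∃ b ∈ Subgroup.normalizer ((inducedFunctor (G := X) W₂ (T : Subgroup X) : Subgroup X) : Set X), x = a * b) :
    FamilyControlsStrongFusionIn p ((fun W => inducedFunctor (G := X) W) '' ({W₁, W₂} : Set (∀ (Q : Type u) [Group Q], Subgroup Q))) ⊤ := by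
  have hT := sylowIn_top_of_sylow T
  set N₁ : Subgroup X := Subgroup.normalizer ((inducedFunctor (G := X) W₁ (T : Subgroup X) : Subgroup X) : Set X) with hN₁
  set N₂ : Subgroup X := Subgroup.normalizer ((inducedFunctor (G := X) W₂ (T : Subgroup X) : Subgroup X) : Set X) with hN₂
  have hT₁ : (T : Subgroup X) ≤ N₁ := le_normW hW₁ hT.2.1
  have hT₂ : (T : Subgroup X) ≤ N₂ := le_normW hW₂ hT.2.1
  have hTN : SylowIn p (T : Subgroup X) (N₁ ⊓ N₂) := hT.of_le (le_inf hT₁ hT₂) le_top
  refine familyControls_of_chain hT ?_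
  intro A h _ hA hA'
  obtain ⟨a, ha, b, hb, rfl⟩ := hfac h
  have hBT : Subgroup.closure (lconj b A) ≤ conjS b (T : Subgroup X) := by
    rw [Subgroup.closure_le]
    rintro _ ⟨y, hy, rfl⟩
    exact conj_mem_conjS (hA hy)
  have hB₂ : Subgroup.closure (lconj b A) ≤ N₂ := by
    refine hBT.trans ?_
    rintro _ ⟨t, ht, rfl⟩
    exact N₂.mul_mem (N₂.mul_mem hb (hT₂ ht)) (N₂.inv_mem hb)
  have hB₁ : Subgroup.closure (lconj b A) ≤ N₁ := by
    rw [Subgroup.closure_le]
    rintro _ ⟨y, hy, rfl⟩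
    have h1 : (a * b) * y * (a * b)⁻¹ ∈ (T : Subgroup X) := hA' ⟨y, hy, rfl⟩
    have e : b * y * b⁻¹ = a⁻¹ * ((a * b) * y * (a * b)⁻¹) * a := by group
    show b * y * b⁻¹ ∈ N₁
    rw [e]
    exact N₁.mul_mem (N₁.mul_mem (N₁.inv_mem ha) (hT₁ h1)) ha
  have hBp : IsPGroup p (Subgroup.closure (lconj b A)) :=
    (isPGroup_conjS b hT.2.1).to_le hBT
  obtain ⟨c, hc, hcB⟩ := hTN.exists_conj_le (le_inf hB₁ hB₂) hBp
  have hcT : lconj (c * b) A ⊆ (T : Subgroup X) := by
    rintro _ ⟨y, hy, rfl⟩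
    have h1 : b * y * b⁻¹ ∈ Subgroup.closure (lconj b A) := Subgroup.subset_closure ⟨y, hy, rfl⟩
    have h2 := hcB (conj_mem_conjS (g := c) h1)
    have e : (c * b) * y * (c * b)⁻¹ = c * (b * y * b⁻¹) * c⁻¹ := by group
    show (c * b) * y * (c * b)⁻¹ ∈ (T : Subgroup X)
    rw [e]
    exact h2
  refine ⟨(a * c⁻¹) * (c * b), ?_, fun y _ => ?_⟩
  · refine FChain.cons hA (x := c * b) ⟨_, ⟨W₂, Or.inr rfl, rfl⟩, trivial, N₂.mul_mem hc.2 hb⟩ ?_
    refine FChain.single hcT ?_ ⟨_, ⟨W₁, Or.inl rfl, rfl⟩, trivial, N₁.mul_mem ha (N₁.inv_mem hc.1)⟩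
    rw [← lconj_mul]
    have e : a * c⁻¹ * (c * b) = a * b := by group
    rw [e]
    exact hA'
  · have e : a * c⁻¹ * (c * b) = a * b := by group
    rw [e]

end Factor

section EmptyFam

variable {G : Type u} [Group G] [Finite G] {p : ℕ} [hp : Fact p.Prime]

/-- The case of the empty family in the minimal failure. -/
theorem MinFail.centralizer_pCore_le_empty
    (hmf : MinFail p (∅ : Set (∀ (Q : Type u) [Group Q], Subgroup Q)) G) {S : Subgroup G} (hS : SylowIn p S ⊤) :
    Subgroup.centralizer ((pCore p G : Subgroup G) : Set G) ≤ pCore p G := by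
  have h𝓦 : ∀ W ∈ (∅ : Set (∀ (Q : Type u) [Group Q], Subgroup Q)), IsCharPFunctor.{u} p W := fun _ h => h.elim
  have hfam : famT (∅ : Set (∀ (Q : Type u) [Group Q], Subgroup Q)) S = ⊥ := by
    simp [famT]
  by_cases hn : Subgroup.normalizer (S : Set G) = ⊤
  · haveI hSn : S.Normal := Subgroup.normalizer_eq_top_iff.1 hn
    refine centralizer_le_of_inf_le hS (hmf.pPrimeCore_eq_bot h𝓦 hS) ?_
    refine inf_le_left.trans ?_
    exact Lib.Core.le_pCore hSn hS.2.1
  · exfalso
    have h1 : S ⊓ ⁅Subgroup.normalizer (S : Set G), Subgroup.normalizer (S : Set G)⁆ ≤ ⊥ := by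
      rw [← hfam]
      exact hmf.proper_le h𝓦 hS Subgroup.le_normalizer hn
    have hcen : ∀ x ∈ Subgroup.normalizer (S : Set G), ∀ s ∈ S, x * s = s * x := by
      intro x hx s hs
      have h2 : ⁅x, s⁆ ∈ S := by
        have h3 : x * s * x⁻¹ ∈ S := (Subgroup.mem_normalizer_iff.1 hx s).1 hs
        have e : ⁅x, s⁆ = (x * s * x⁻¹) * s⁻¹ := by simp [commutatorElement_def]
        rw [e]
        exact S.mul_mem h3 (S.inv_mem hs)
      have h4 : ⁅x, s⁆ ∈ ⁅Subgroup.normalizer (S : Set G), Subgroup.normalizer (S : Set G)⁆ :=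
        Subgroup.commutator_mem_commutator hx (Subgroup.le_normalizer hs)
      have h5 : ⁅x, s⁆ = 1 := Subgroup.mem_bot.1 (h1 ⟨h2, h4⟩)
      exact commutatorElement_eq_one_iff_mul_comm.1 h5
    obtain ⟨P, hP⟩ := hS.of_top
    subst hP
    have hP' : Subgroup.normalizer ((P : Subgroup G) : Set G) ≤ Subgroup.centralizer ((P : Subgroup G) : Set G) := by
      intro x hx
      rw [Subgroup.mem_centralizer_iff]
      intro s hs
      exact (hcen x hx s hs).symm
    apply hmf.not_le hS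
    rw [hfam]
    rintro z ⟨hz1, hz2⟩
    have hcomm : ⁅(⊤ : Subgroup G), (⊤ : Subgroup G)⁆ ≤ (MonoidHom.transferSylow P hP').ker := by
      rw [Subgroup.commutator_le]
      intro a _ b _
      rw [MonoidHom.mem_ker, map_commutatorElement, commutatorElement_eq_one_iff_mul_comm]
      apply Subtype.ext
      exact hP' (Subgroup.le_normalizer (MonoidHom.transferSylow P hP' b).2) _ (MonoidHom.transferSylow P hP' a).2
    have hd := MonoidHom.ker_transferSylow_disjoint P hP' (P : Subgroup G) P.isPGroup'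
    have := (Subgroup.disjoint_def.1 hd) (hcomm hz2) hz1
    exact Subgroup.mem_bot.2 this

/-- A set of functors controlling transfer in all constrained sections controls transfer. -/
theorem transfer_control_global {𝓦 : Set (∀ (Q : Type u) [Group Q], Subgroup Q)}
    (h𝓦 : ∀ W ∈ 𝓦, IsCharPFunctor.{u} p W)
    (hloc : ∀ (K R : Subgroup G) [hR : (R.subgroupOf K).Normal],
      Subgroup.centralizer ((pCore p (↥K ⧸ R.subgroupOf K) : Subgroup (↥K ⧸ R.subgroupOf K)) : Set (↥K ⧸ R.subgroupOf K)) ≤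
        pCore p (↥K ⧸ R.subgroupOf K) →
      FamilyControlsTransferIn p ((fun W => inducedFunctor (G := (↥K ⧸ R.subgroupOf K)) W) '' 𝓦) ⊤) :
    FamilyControlsTransferIn p ((fun W => inducedFunctor (G := G) W) '' 𝓦) ⊤ := by
  have key : ∀ (K R : Subgroup G) [hR : (R.subgroupOf K).Normal],
      FamilyControlsTransferIn p ((fun W => inducedFunctor (G := (↥K ⧸ R.subgroupOf K)) W) '' 𝓦) ⊤ := by
    intro K R hR
    refine section_induction
      (P := fun K R _ => FamilyControlsTransferIn p ((fun W => inducedFunctor (G := (↥K ⧸ R.subgroupOf K)) W) '' 𝓦) ⊤) ?_ K R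
    intro K R hR ih
    by_contra hnot
    have hmf := minFail_of_IH h𝓦 K R ih hnot
    obtain ⟨S⟩ : Nonempty (Sylow p (↥K ⧸ R.subgroupOf K)) := inferInstance
    have hS := sylowIn_top_of_sylow S
    refine hnot (hloc K R ?_)
    rcases Set.eq_empty_or_nonempty 𝓦 with h0 | hne
    · subst h0
      exact hmf.centralizer_pCore_le_empty hS
    · exact hmf.centralizer_pCore_le h𝓦 hne hS
  haveI hR : ((⊥ : Subgroup G).subgroupOf (⊤ : Subgroup G)).Normal := inferInstance
  obtain ⟨f, hf, hm⟩ := exists_section_bot_map (⊤ : Subgroup G)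
  have := familyControls_map_of_injective h𝓦 f hf (key ⊤ ⊥)
  rwa [hm] at this

end EmptyFam

end Cfsg.Agent.Lib.Techniques
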