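import Mathlib
import Cfsg.Prelude.Def_CaseTheorems
import Cfsg.Agent.Lib.Core.Basic
import Cfsg.Agent.Lib.Char.Product
import Cfsg.Agent.Lib.Hall.Generation

/-!
# Four-groups normal in a Sylow 2-subgroup of a group of characteristic 2 type

Such a four-group centralizes every odd-order subgroup it normalizes.
-/

set_option autoImplicit false
set_option linter.style.haveILetI false

namespace Cfsg.Agent.Lib.Techniques.NChar2

open Subgroup Cfsg Cfsg.Agent.Lib.Core
open scoped commutatorElement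

section core

variable {H : Type*} [Group H] [Finite H]

/-- The subgroup of elements acting as transvections with centre `u` on `O₂(H)`. -/
def transSub (u : H) (hu : u ∈ center H) (hu2 : u * u = 1) : Subgroup H where
  carrier := {g | ∀ r ∈ pCore 2 H, ⁅r, g⁆ = 1 ∨ ⁅r, g⁆ = u}
  one_mem' := by
    intro r _
    left
    simp [commutatorElement_def]
  inv_mem' := by
    intro g hg r hr
    have e : ⁅r, g⁻¹⁆ = g⁻¹ * ⁅r, g⁆⁻¹ * g := by
      simp only [commutatorElement_def]; group
    rw [e]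
    rcases hg r hr with h | h
    · left; rw [h]; simp
    · right
      rw [h]
      have hui : u⁻¹ = u := inv_eq_of_mul_eq_one_left hu2
      rw [hui, (mem_center_iff.1 hu) g⁻¹]
      simp
  mul_mem' := by
    intro g h hg hh r hr
    have e : ⁅r, g * h⁆ = ⁅r, g⁆ * (g * ⁅r, h⁆ * g⁻¹) := by
      simp only [commutatorElement_def]; group
    rw [e]
    rcases hg r hr with h1 | h1 <;> rcases hh r hr with h2 | h2 <;> rw [h1, h2]
    · left; simp
    · right
      rw [(mem_center_iff.1 hu) g]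
      simp
    · right; simp
    · left
      rw [(mem_center_iff.1 hu) g]
      simpa using hu2

theorem mem_core_of_transvection (hC : centralizer (pCore 2 H : Set H) ≤ pCore 2 H) {u : H}
    (hu : u ∈ center H) (hu2 : u * u = 1) {v : H} (hv : ∀ r ∈ pCore 2 H, ⁅r, v⁆ = 1 ∨ ⁅r, v⁆ = u) :
    v ∈ pCore 2 H := by
  haveI hF : Fact (Nat.Prime 2) := ⟨Nat.prime_two⟩
  have hn : (transSub u hu hu2).Normal := by
    refine ⟨fun g hg h r hr => ?_⟩
    have e : ⁅r, h * g * h⁻¹⁆ = h * ⁅h⁻¹ * r * h, g⁆ * h⁻¹ := by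
      simp only [commutatorElement_def]; group
    rw [e]
    have hr' : h⁻¹ * r * h ∈ pCore 2 H := by
      have := (pCore_normal (p := 2) (G := H)).conj_mem r hr h⁻¹
      simpa using this
    rcases hg _ hr' with h1 | h1
    · left; rw [h1]; simp
    · right; rw [h1, (mem_center_iff.1 hu) h]; simp
  have hpg : IsPGroup 2 (transSub u hu hu2) := by
    rintro ⟨g, hg⟩
    have h1 : g * g ∈ pCore 2 H := by
      apply hC
      rw [mem_centralizer_iff]
      intro r hr
      have e : ⁅r, g * g⁆ = ⁅r, g⁆ * (g * ⁅r, g⁆ * g⁻¹) := by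
        simp only [commutatorElement_def]; group
      have h2 : ⁅r, g * g⁆ = 1 := by
        rw [e]
        rcases hg r hr with h1 | h1 <;> rw [h1]
        · simp
        · rw [(mem_center_iff.1 hu) g]
          simpa using hu2
      have h3 := commutatorElement_eq_one_iff_mul_comm.1 h2
      exact h3
    obtain ⟨k, hk⟩ := (pCore_isPGroup (p := 2) (G := H)) ⟨g * g, h1⟩
    refine ⟨k + 1, Subtype.ext ?_⟩
    have h4 : (g * g) ^ 2 ^ k = 1 := congrArg Subtype.val hk
    show g ^ 2 ^ (k + 1) = 1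
    rw [pow_succ', pow_mul, pow_two]
    exact h4
  exact le_pCore hn hpg hv

end core

section ambient

variable {G : Type*} [Group G] [Finite G]

theorem mem_zpowers_involution {u x : G} (hu : u * u = 1) (hx : x ∈ zpowers u) : x = 1 ∨ x = u := by
  obtain ⟨k, rfl⟩ := mem_zpowers_iff.1 hx
  have h2 : u ^ (2 : ℤ) = 1 := by
    rw [zpow_two]; exact hu
  rcases Int.even_or_odd' k with ⟨m, rfl | rfl⟩
  · left; rw [zpow_mul, h2, one_zpow]
  · right; rw [zpow_add, zpow_mul, h2, one_zpow, one_mul, zpow_one]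

/-- `U` lies in `O₂(C(u))` when `O₂(C(u))` normalizes `U`. -/
theorem le_core {u : G} (hu : u * u = 1) (hu1 : u ≠ 1) (U : Subgroup G) (hU4 : IsKleinFour ↥U) (huU : u ∈ U)
    (hUC : U ≤ normalizer ((zpowers u : Subgroup G) : Set G))
    (hchar : IsOfCharacteristicTwo ↥(normalizer ((zpowers u : Subgroup G) : Set G)))
    (hnorm : ∀ r ∈ (pCore 2 ↥(normalizer ((zpowers u : Subgroup G) : Set G))).map
        (normalizer ((zpowers u : Subgroup G) : Set G)).subtype, ∀ w ∈ U, r * w * r⁻¹ ∈ U) :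
    U ≤ (pCore 2 ↥(normalizer ((zpowers u : Subgroup G) : Set G))).map
        (normalizer ((zpowers u : Subgroup G) : Set G)).subtype := by
  classical
  haveI hF : Fact (Nat.Prime 2) := ⟨Nat.prime_two⟩
  obtain ⟨N, hN⟩ : ∃ N : Subgroup G, N = normalizer ((zpowers u : Subgroup G) : Set G) := ⟨_, rfl⟩
  rw [← hN] at hUC hchar hnorm ⊢
  have huN : u ∈ N := hUC huU
  have hcen : (⟨u, huN⟩ : N) ∈ center ↥N := by
    rw [mem_center_iff]
    rintro ⟨n, hn⟩
    apply Subtype.ext
    show n * u = u * n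
    have hn' : n ∈ normalizer ((zpowers u : Subgroup G) : Set G) := hN ▸ hn
    have h1 : n * u * n⁻¹ ∈ zpowers u := (mem_normalizer_iff.1 hn' u).1 (mem_zpowers u)
    rcases mem_zpowers_involution hu h1 with h2 | h2
    · exfalso
      apply hu1
      have : u = n⁻¹ * (n * u * n⁻¹) * n := by group
      rw [this, h2]
      group
    · exact mul_inv_eq_iff_eq_mul.1 h2
  have hu2' : (⟨u, huN⟩ : N) * ⟨u, huN⟩ = 1 := Subtype.ext hu
  have huR : (⟨u, huN⟩ : N) ∈ pCore 2 ↥N := by
    have hn : (zpowers (⟨u, huN⟩ : N)).Normal := by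
      refine ⟨fun x hx g => ?_⟩
      rcases mem_zpowers_involution hu2' hx with h | h
      · rw [h]; simp [Subgroup.one_mem]
      · rw [h, (mem_center_iff.1 hcen) g]
        simp
    have hp : IsPGroup 2 (zpowers (⟨u, huN⟩ : N)) := by
      rintro ⟨x, hx⟩
      refine ⟨1, Subtype.ext ?_⟩
      show x ^ 2 ^ 1 = 1
      rcases mem_zpowers_involution hu2' hx with h | h
      · rw [h]; simp
      · rw [h, pow_one, pow_two]; exact hu2'
    exact le_pCore hn hp (mem_zpowers _)
  intro v hv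
  by_contra hvR
  apply hvR
  haveI := hU4
  have hvN : v ∈ N := hUC hv
  have hmem := mem_core_of_transvection (H := ↥N) hchar hcen hu2' (v := ⟨v, hvN⟩) ?_
  · exact ⟨⟨v, hvN⟩, hmem, rfl⟩
  intro r hr
  have h1 : ⁅r, (⟨v, hvN⟩ : N)⁆ ∈ pCore 2 ↥N := by
    have e : ⁅r, (⟨v, hvN⟩ : N)⁆ = r * ((⟨v, hvN⟩ : N) * r⁻¹ * (⟨v, hvN⟩ : N)⁻¹) := by
      simp only [commutatorElement_def]; group
    rw [e]
    exact mul_mem hr ((pCore_normal (p := 2) (G := ↥N)).conj_mem _ (inv_mem hr) _)
  have h2 : ((⁅r, (⟨v, hvN⟩ : N)⁆ : N) : G) ∈ U := by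
    have e : ((⁅r, (⟨v, hvN⟩ : N)⁆ : N) : G) = ((r : G) * v * (r : G)⁻¹) * v⁻¹ := by
      simp [commutatorElement_def]
    rw [e]
    exact U.mul_mem (hnorm _ ⟨r, hr, rfl⟩ v hv) (U.inv_mem hv)
  -- enumerate
  have hv1 : v ≠ 1 := by
    rintro rfl
    exact hvR (Subgroup.one_mem _)
  have hne : (⟨u, huU⟩ : U) ≠ ⟨v, hv⟩ := by
    intro h
    have : u = v := congrArg Subtype.val h
    apply hvR
    rw [← this]
    exact ⟨⟨u, huN⟩, huR, rfl⟩
  haveI : Fintype ↥U := Fintype.ofFinite _
  have hen := IsKleinFour.eq_finset_univ (G := ↥U) (x := ⟨u, huU⟩) (y := ⟨v, hv⟩)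
    (fun h => hu1 (congrArg Subtype.val h)) (fun h => hv1 (congrArg Subtype.val h)) hne
  have hw : (⟨_, h2⟩ : U) ∈ ({⟨u, huU⟩ * ⟨v, hv⟩, ⟨u, huU⟩, ⟨v, hv⟩, (1 : U)} : Finset ↥U) := by
    rw [hen]; exact Finset.mem_univ _
  simp only [Finset.mem_insert, Finset.mem_singleton] at hw
  have hmemR : ∀ x : N, x ∈ pCore 2 ↥N → (x : G) ∈ (pCore 2 ↥N).map N.subtype :=
    fun x hx => ⟨x, hx, rfl⟩
  rcases hw with h3 | h3 | h3 | h3
  · exfalso
    have h4 : ((⁅r, (⟨v, hvN⟩ : N)⁆ : N) : G) = u * v := congrArg Subtype.val h3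
    apply hvR
    have h5 : v = u⁻¹ * ((⁅r, (⟨v, hvN⟩ : N)⁆ : N) : G) := by rw [h4]; group
    rw [h5]
    exact mul_mem (inv_mem ⟨⟨u, huN⟩, huR, rfl⟩) (hmemR _ h1)
  · right
    have h4 : ((⁅r, (⟨v, hvN⟩ : N)⁆ : N) : G) = u := congrArg Subtype.val h3
    exact Subtype.ext h4
  · exfalso
    have h4 : ((⁅r, (⟨v, hvN⟩ : N)⁆ : N) : G) = v := congrArg Subtype.val h3
    apply hvR
    rw [← h4]
    exact hmemR _ h1
  · left
    have h4 : ((⁅r, (⟨v, hvN⟩ : N)⁆ : N) : G) = 1 := congrArg Subtype.val h3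
    exact Subtype.ext h4

theorem card_rel {H K : Subgroup G} (h : H ≤ K) : Nat.card K = Nat.card H * H.relIndex K := by
  have h1 := Subgroup.card_mul_index (H.subgroupOf K)
  have h2 : Nat.card (H.subgroupOf K) = Nat.card H := Nat.card_congr (subgroupOfEquivOfLe h).toEquiv
  rw [h2] at h1
  exact h1.symm

/-- In a cyclic group, involutions are unique. -/
theorem involution_unique_of_cyclic {C : Type*} [Group C] [Finite C] [IsCyclic C] {a b : C} (ha : a * a = 1)
    (hb : b * b = 1) (ha1 : a ≠ 1) (hb1 : b ≠ 1) : a = b := by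
  classical
  haveI : Fintype C := Fintype.ofFinite _
  by_contra hne
  have h1 := IsCyclic.card_pow_eq_one_le (α := C) (n := 2) (by norm_num)
  have h2 : ({1, a, b} : Finset C) ⊆ Finset.univ.filter (fun x => x ^ 2 = 1) := by
    intro x hx
    simp only [Finset.mem_insert, Finset.mem_singleton] at hx
    simp only [Finset.mem_filter, Finset.mem_univ, true_and]
    rcases hx with rfl | rfl | rfl
    · simp
    · rw [pow_two]; exact ha
    · rw [pow_two]; exact hb
  have h3 := Finset.card_le_card h2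
  have h4 : ({1, a, b} : Finset C).card = 3 := by
    rw [Finset.card_insert_of_notMem, Finset.card_insert_of_notMem, Finset.card_singleton]
    · simpa using hne
    · simp only [Finset.mem_insert, Finset.mem_singleton, not_or]
      exact ⟨ha1.symm, hb1.symm⟩
  omega

/-- `O₂(C(u))` normalizes `U`. -/
theorem core_normalizes (P : Sylow 2 G) (U : Subgroup G) (hUP : U ≤ (P : Subgroup G))
    (hUn : (P : Subgroup G) ≤ normalizer (U : Set G)) (hU4 : IsKleinFour ↥U)
    (hUZ : ¬ IsCyclic ↥((P : Subgroup G) ⊓ centralizer ((P : Subgroup G) : Set G)) →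
      U ≤ centralizer ((P : Subgroup G) : Set G))
    {u : G} (huU : u ∈ U) (hu1 : u ≠ 1) (R : Subgroup G) (hR2 : IsPGroup 2 R)
    (hRn : centralizer ({u} : Set G) ≤ normalizer (R : Set G)) (hRC : R ≤ centralizer ({u} : Set G)) :
    ∀ r ∈ R, ∀ w ∈ U, r * w * r⁻¹ ∈ U := by
  classical
  haveI hF : Fact (Nat.Prime 2) := ⟨Nat.prime_two⟩
  haveI := hU4
  have hnormP : ∀ r ∈ (P : Subgroup G), ∀ w ∈ U, r * w * r⁻¹ ∈ U := fun r hr w hw =>
    (mem_normalizer_iff.1 (hUn hr) w).1 hw
  have hU2 : ∀ w ∈ U, w * w = 1 := fun w hw =>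
    congrArg Subtype.val (IsKleinFour.mul_self (⟨w, hw⟩ : U))
  by_cases hcen : u ∈ centralizer ((P : Subgroup G) : Set G)
  · -- `u` central in `P`
    have hPC : (P : Subgroup G) ≤ centralizer ({u} : Set G) := by
      intro x hx
      rw [mem_centralizer_singleton_iff]
      exact (mem_centralizer_iff.1 hcen) x hx
    have hY : IsPGroup 2 (R ⊔ (P : Subgroup G) : Subgroup G) :=
      hR2.to_sup_of_normal_left' P.isPGroup' (hPC.trans hRn)
    have hYe := P.is_maximal' hY le_sup_right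
    have hRP : R ≤ (P : Subgroup G) := by
      rw [← hYe]; exact le_sup_left
    exact fun r hr w hw => hnormP r (hRP hr) w hw
  -- `u` not central in `P`
  have hnc : IsCyclic ↥((P : Subgroup G) ⊓ centralizer ((P : Subgroup G) : Set G)) := by
    by_contra h
    exact hcen (hUZ h huU)
  -- a central involution `z` in `U`
  obtain ⟨z, hzU, hzc, hz1⟩ : ∃ z ∈ U, (∀ x ∈ (P : Subgroup G), x * z = z * x) ∧ z ≠ 1 := by
    have hnU : (U.subgroupOf (P : Subgroup G)).Normal := by
      refine ⟨fun x hx g => ?_⟩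
      rw [mem_subgroupOf] at hx ⊢
      exact hnormP _ g.2 _ hx
    have hne : U.subgroupOf (P : Subgroup G) ≠ ⊥ := by
      intro h
      have : (⟨u, hUP huU⟩ : (P : Subgroup G)) ∈ U.subgroupOf (P : Subgroup G) := by
        rw [mem_subgroupOf]; exact huU
      rw [h, Subgroup.mem_bot] at this
      exact hu1 (congrArg Subtype.val this)
    obtain ⟨z, hz, hzc, hz1⟩ := Cfsg.Agent.Lib.Char.exists_mem_center_of_normal P.isPGroup' _ hnU hne
    refine ⟨z, hz, ?_, fun h => hz1 (Subtype.ext h)⟩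
    intro x hx
    exact congrArg Subtype.val ((mem_center_iff.1 hzc) ⟨x, hx⟩)
  have hzu : z ≠ u := by
    rintro rfl
    apply hcen
    rw [mem_centralizer_iff]
    intro x hx
    exact hzc x hx
  have hzz : z * z = 1 := hU2 z hzU
  have huu : u * u = 1 := hU2 u huU
  have hzcu : z * u = u * z := (hzc u (hUP huU)).symm
  haveI : Fintype ↥U := Fintype.ofFinite _
  have henU : ∀ w ∈ U, w = u * z ∨ w = u ∨ w = z ∨ w = 1 := by
    intro w hw
    have hen := IsKleinFour.eq_finset_univ (G := ↥U) (x := ⟨u, huU⟩) (y := ⟨z, hzU⟩)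
      (fun h => hu1 (congrArg Subtype.val h)) (fun h => hz1 (congrArg Subtype.val h))
      (fun h => hzu (congrArg Subtype.val h).symm)
    have h1 : (⟨w, hw⟩ : U) ∈ ({⟨u, huU⟩ * ⟨z, hzU⟩, ⟨u, huU⟩, ⟨z, hzU⟩, (1 : U)} : Finset ↥U) := by
      rw [hen]; exact Finset.mem_univ _
    simp only [Finset.mem_insert, Finset.mem_singleton] at h1
    rcases h1 with h | h | h | h
    · exact Or.inl (congrArg Subtype.val h)
    · exact Or.inr (Or.inl (congrArg Subtype.val h))
    · exact Or.inr (Or.inr (Or.inl (congrArg Subtype.val h)))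
    · exact Or.inr (Or.inr (Or.inr (congrArg Subtype.val h)))
  -- the action on `u`
  have hact : ∀ x ∈ (P : Subgroup G), x * u * x⁻¹ = u ∨ x * u * x⁻¹ = u * z := by
    intro x hx
    rcases henU _ (hnormP x hx u huU) with h | h | h | h
    · exact Or.inr h
    · exact Or.inl h
    · exfalso
      apply hzu
      have h2 : x * u = z * x := mul_inv_eq_iff_eq_mul.1 h
      rw [← hzc x hx] at h2
      exact (mul_left_cancel h2).symm
    · exfalso
      apply hu1
      have h2 : u = x⁻¹ * (x * u * x⁻¹) * x := by group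
      rw [h2, h]; group
  obtain ⟨y, hyP, hyu⟩ : ∃ y ∈ (P : Subgroup G), y * u * y⁻¹ = u * z := by
    by_contra hno
    apply hcen
    rw [mem_centralizer_iff]
    intro x hx
    rcases hact x hx with h | h
    · exact mul_inv_eq_iff_eq_mul.1 h
    · exact absurd ⟨x, hx, h⟩ hno
  obtain ⟨P₀, hP₀⟩ : ∃ P₀ : Subgroup G, P₀ = (P : Subgroup G) ⊓ centralizer ({u} : Set G) := ⟨_, rfl⟩
  have hmem₀ : ∀ x, x ∈ P₀ ↔ x ∈ (P : Subgroup G) ∧ x * u = u * x := by
    intro x
    rw [hP₀, mem_inf, mem_centralizer_singleton_iff]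
  have hP₀le : P₀ ≤ (P : Subgroup G) := fun x hx => ((hmem₀ x).1 hx).1
  have hmemy : ∀ x ∈ (P : Subgroup G), x ∉ P₀ → x * u * x⁻¹ = u * z := by
    intro x hx hx0
    rcases hact x hx with h | h
    · exfalso
      exact hx0 ((hmem₀ x).2 ⟨hx, mul_inv_eq_iff_eq_mul.1 h⟩)
    · exact h
  have hmem₀' : ∀ x ∈ (P : Subgroup G), x * u * x⁻¹ = u → x ∈ P₀ := fun x hx h =>
    (hmem₀ x).2 ⟨hx, mul_inv_eq_iff_eq_mul.1 h⟩
  have hmem₀'' : ∀ x ∈ P₀, x * u * x⁻¹ = u := fun x hx => by
    rw [((hmem₀ x).1 hx).2]; group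
  have hyn : y ∉ P₀ := by
    intro h
    have h1 := hmem₀'' y h
    rw [hyu] at h1
    apply hz1
    have := mul_eq_left.1 h1
    exact this
  -- index two in `P`
  have hidx : P₀.relIndex (P : Subgroup G) = 2 := by
    rw [relIndex_eq_two_iff]
    refine ⟨y, hyP, fun b hb => ?_⟩
    have hby : b * y ∈ (P : Subgroup G) := mul_mem hb hyP
    by_cases hb0 : b ∈ P₀
    · have h1 : b * y ∉ P₀ := by
        intro h
        have h2 := hmem₀'' _ h
        have h3 : (b * y) * u * (b * y)⁻¹ = b * (y * u * y⁻¹) * b⁻¹ := by group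
        rw [h3, hyu] at h2
        have h4 : b * (u * z) * b⁻¹ = (b * u * b⁻¹) * z := by
          have := hzc b (hP₀le hb0)
          calc b * (u * z) * b⁻¹ = b * u * (z * b⁻¹) := by group
            _ = b * u * (b⁻¹ * z) := by rw [hzc b⁻¹ (inv_mem (hP₀le hb0))]
            _ = (b * u * b⁻¹) * z := by group
        rw [h4, hmem₀'' b hb0] at h2
        exact hz1 (mul_eq_left.1 h2)
      simp [hb0, h1]
    · have h1 : b * y ∈ P₀ := by
        apply hmem₀' _ hby
        have h3 : (b * y) * u * (b * y)⁻¹ = b * (y * u * y⁻¹) * b⁻¹ := by group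
        rw [h3, hyu]
        have h4 : b * (u * z) * b⁻¹ = (b * u * b⁻¹) * z := by
          calc b * (u * z) * b⁻¹ = b * u * (z * b⁻¹) := by group
            _ = b * u * (b⁻¹ * z) := by rw [hzc b⁻¹ (inv_mem hb)]
            _ = (b * u * b⁻¹) * z := by group
        rw [h4, hmemy b hb hb0, mul_assoc, hzz, mul_one]
      simp [hb0, h1]
  have hcardP : Nat.card (P : Subgroup G) = Nat.card P₀ * 2 := by
    rw [card_rel hP₀le, hidx]
  -- `P₀` centralizes `U`
  have hUP₀ : U ≤ P₀ := by
    intro w hw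
    refine (hmem₀ w).2 ⟨hUP hw, ?_⟩
    rcases henU w hw with rfl | rfl | rfl | rfl
    · rw [mul_assoc, hzcu]
    · rfl
    · exact hzcu
    · simp
  have hcomU : ∀ x ∈ P₀, ∀ w ∈ U, x * w = w * x := by
    intro x hx w hw
    have hxu := ((hmem₀ x).1 hx).2
    have hxz := hzc x (hP₀le hx)
    rcases henU w hw with rfl | rfl | rfl | rfl
    · rw [← mul_assoc, hxu, mul_assoc, hxz, mul_assoc]
    · exact hxu
    · exact hxz
    · simp
  -- `P₀` is normal in `P`
  have hP₀nP : ∀ x ∈ (P : Subgroup G), ∀ a ∈ P₀, x * a * x⁻¹ ∈ P₀ := by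
    have hn := normal_of_index_eq_two (H := P₀.subgroupOf (P : Subgroup G)) hidx
    intro x hx a ha
    have := hn.conj_mem ⟨a, hP₀le ha⟩ ((mem_subgroupOf).2 ha) ⟨x, hx⟩
    exact (mem_subgroupOf).1 this
  have hyy : y * y ∈ P₀ := by
    apply hmem₀' _ (mul_mem hyP hyP)
    have h3 : (y * y) * u * (y * y)⁻¹ = y * (y * u * y⁻¹) * y⁻¹ := by group
    rw [h3, hyu]
    have h4 : y * (u * z) * y⁻¹ = (y * u * y⁻¹) * z := by
      calc y * (u * z) * y⁻¹ = y * u * (z * y⁻¹) := by group
        _ = y * u * (y⁻¹ * z) := by rw [hzc y⁻¹ (inv_mem hyP)]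
        _ = (y * u * y⁻¹) * z := by group
    rw [h4, hyu, mul_assoc, hzz, mul_one]
  -- Central involutions of `P` are in `{1, z}`
  have hcy : ∀ d ∈ (P : Subgroup G), (∀ x ∈ P₀, d * x = x * d) → y * d * y⁻¹ = d → d * d = 1 →
      d = 1 ∨ d = z := by
    intro d hd hd0 hdy hdd
    by_cases hd1 : d = 1
    · exact Or.inl hd1
    right
    have hdcent : ∀ x ∈ (P : Subgroup G), x * d = d * x := by
      intro x hx
      by_cases hx0 : x ∈ P₀
      · exact (hd0 x hx0).symm
      · have h1 : y⁻¹ * x ∈ P₀ := by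
          apply hmem₀' _ (mul_mem (inv_mem hyP) hx)
          have h2 := hmemy x hx hx0
          have h3 : (y⁻¹ * x) * u * (y⁻¹ * x)⁻¹ = y⁻¹ * (x * u * x⁻¹) * y := by group
          rw [h3, h2, ← hyu]
          group
        have h2 := hd0 _ h1
        have h3 : y * d = d * y := mul_inv_eq_iff_eq_mul.1 hdy
        calc x * d = y * (y⁻¹ * x) * d := by group
          _ = y * ((y⁻¹ * x) * d) := by group
          _ = y * (d * (y⁻¹ * x)) := by rw [h2]
          _ = (y * d) * (y⁻¹ * x) := by group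
          _ = (d * y) * (y⁻¹ * x) := by rw [h3]
          _ = d * x := by group
    have hd' : d ∈ (P : Subgroup G) ⊓ centralizer ((P : Subgroup G) : Set G) :=
      ⟨hd, mem_centralizer_iff.2 hdcent⟩
    have hz' : z ∈ (P : Subgroup G) ⊓ centralizer ((P : Subgroup G) : Set G) :=
      ⟨hUP hzU, mem_centralizer_iff.2 hzc⟩
    have := involution_unique_of_cyclic (C := ↥((P : Subgroup G) ⊓ centralizer ((P : Subgroup G) : Set G)))
      (a := ⟨d, hd'⟩) (b := ⟨z, hz'⟩) (Subtype.ext hdd) (Subtype.ext hzz)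
      (fun h => hd1 (congrArg Subtype.val h)) (fun h => hz1 (congrArg Subtype.val h))
    exact congrArg Subtype.val this
  -- The W claim
  have hW : ∀ w' ∈ P₀, (∀ x ∈ P₀, w' * x = x * w') → w' * w' = 1 → w' ∈ U := by
    intro w' hw'0 hw'c hw'2
    have hw'P := hP₀le hw'0
    obtain ⟨a, ha⟩ : ∃ a, a = y * w' * y⁻¹ := ⟨_, rfl⟩
    have ha0 : a ∈ P₀ := by rw [ha]; exact hP₀nP y hyP w' hw'0
    have hac : ∀ x ∈ P₀, a * x = x * a := by
      intro x hx
      have h1 := hw'c _ (hP₀nP y⁻¹ (inv_mem hyP) x hx)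
      rw [ha]
      have h2 : w' * (y⁻¹ * x * y⁻¹⁻¹) * y⁻¹ = y⁻¹ * x * y⁻¹⁻¹ * w' * y⁻¹ := by rw [h1]
      calc y * w' * y⁻¹ * x = y * (w' * (y⁻¹ * x * y⁻¹⁻¹) * y⁻¹) := by group
        _ = y * (y⁻¹ * x * y⁻¹⁻¹ * w' * y⁻¹) := by rw [h2]
        _ = x * (y * w' * y⁻¹) := by group
    have ha2 : a * a = 1 := by
      rw [ha]
      calc y * w' * y⁻¹ * (y * w' * y⁻¹) = y * (w' * w') * y⁻¹ := by group
        _ = 1 := by rw [hw'2]; group
    have hya : y * a * y⁻¹ = w' := by
      rw [ha]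
      have h1 := hw'c _ hyy
      calc y * (y * w' * y⁻¹) * y⁻¹ = (y * y) * w' * (y * y)⁻¹ := by group
        _ = w' * (y * y) * (y * y)⁻¹ := by rw [← h1]
        _ = w' := by group
    have hcomm : w' * a = a * w' := hw'c a ha0
    -- `d = w' * a`
    have hd := hcy (w' * a) (mul_mem hw'P (hP₀le ha0))
      (fun x hx => by rw [mul_assoc, hac x hx, ← mul_assoc, hw'c x hx, mul_assoc])
      (by
        have e : y * (w' * a) * y⁻¹ = (y * w' * y⁻¹) * (y * a * y⁻¹) := by group
        rw [e, ← ha, hya, hcomm])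
      (by
        calc w' * a * (w' * a) = w' * (a * w') * a := by group
          _ = w' * (w' * a) * a := by rw [hcomm]
          _ = (w' * w') * (a * a) := by group
          _ = 1 := by rw [hw'2, ha2, one_mul])
    have hw'inv : w'⁻¹ = w' := inv_eq_of_mul_eq_one_left hw'2
    rcases hd with hd | hd
    · -- `a = w'`
      have hae : a = w' := by
        have := eq_inv_of_mul_eq_one_right hd
        rw [this, hw'inv]
      have h1 := hcy w' hw'P hw'c (by rw [← ha, hae]) hw'2
      rcases h1 with h1 | h1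
      · rw [h1]; exact U.one_mem
      · rw [h1]; exact hzU
    · -- `a = w' * z`
      have hae : a = w' * z := by
        have h1 : a = w'⁻¹ * (w' * a) := by group
        rw [h1, hd, hw'inv]
      have hcu : w' * u = u * w' := hw'c u (hUP₀ huU)
      have h1 := hcy (w' * u) (mul_mem hw'P (hUP huU))
        (fun x hx => by
          have hxu := ((hmem₀ x).1 hx).2
          rw [mul_assoc, ← hxu, ← mul_assoc, hw'c x hx, mul_assoc])
        (by
          have e : y * (w' * u) * y⁻¹ = (y * w' * y⁻¹) * (y * u * y⁻¹) := by group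
          rw [e, ← ha, hae, hyu]
          calc w' * z * (u * z) = w' * (z * u) * z := by group
            _ = w' * (u * z) * z := by rw [hzcu]
            _ = w' * u * (z * z) := by group
            _ = w' * u := by rw [hzz, mul_one])
        (by
          calc w' * u * (w' * u) = w' * (u * w') * u := by group
            _ = w' * (w' * u) * u := by rw [hcu]
            _ = (w' * w') * (u * u) := by group
            _ = 1 := by rw [hw'2, huu, one_mul])
      have hw'e : w' = (w' * u) * u := by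
        rw [mul_assoc, huu, mul_one]
      rw [hw'e]
      rcases h1 with h1 | h1
      · rw [h1, one_mul]; exact huU
      · rw [h1]; exact U.mul_mem hzU huU
  -- Now the two sub-cases
  by_cases hRP₀ : R ≤ P₀
  · exact fun r hr w hw => hnormP r (hP₀le (hRP₀ hr)) w hw
  -- `R ⊔ P₀` has `P₀` with index two
  have hP₀C : P₀ ≤ centralizer ({u} : Set G) := by
    rw [hP₀]; exact inf_le_right
  have hY : IsPGroup 2 (R ⊔ P₀ : Subgroup G) :=
    hR2.to_sup_of_normal_left' (P.isPGroup'.to_le hP₀le) (hP₀C.trans hRn)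
  obtain ⟨S₁, hS₁⟩ := hY.exists_le_sylow
  have hcS : Nat.card (S₁ : Subgroup G) = Nat.card (P : Subgroup G) := by
    rw [Sylow.card_eq_multiplicity, Sylow.card_eq_multiplicity]
  have hP₀Y : P₀ ≤ R ⊔ P₀ := le_sup_right
  have hYle : Nat.card ↥(R ⊔ P₀ : Subgroup G) ≤ Nat.card (P : Subgroup G) := by
    rw [← hcS]
    exact Subgroup.card_le_of_le hS₁
  have hrel := card_rel hP₀Y
  have hrne : P₀.relIndex (R ⊔ P₀) ≠ 1 := by
    intro h
    rw [relIndex_eq_one] at h
    exact hRP₀ (le_sup_left.trans h)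
  have hr0 : P₀.relIndex (R ⊔ P₀) ≠ 0 := by
    intro h
    rw [h, mul_zero] at hrel
    exact Nat.card_pos.ne' hrel
  have hr2 : P₀.relIndex (R ⊔ P₀) = 2 := by
    have hpos : 0 < Nat.card P₀ := Nat.card_pos
    have h3 : Nat.card P₀ * P₀.relIndex (R ⊔ P₀) ≤ Nat.card P₀ * 2 := by
      rw [← hrel, ← hcardP]; exact hYle
    have h4 := Nat.le_of_mul_le_mul_left h3 hpos
    omega
  have hnY := normal_of_index_eq_two (H := P₀.subgroupOf (R ⊔ P₀ : Subgroup G)) hr2
  have hRnP₀ : ∀ r ∈ R, ∀ a ∈ P₀, r * a * r⁻¹ ∈ P₀ := by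
    intro r hr a ha
    have := hnY.conj_mem ⟨a, hP₀Y ha⟩ ((mem_subgroupOf).2 ha) ⟨r, (le_sup_left : R ≤ R ⊔ P₀) hr⟩
    exact (mem_subgroupOf).1 this
  intro r hr w hw
  apply hW _ (hRnP₀ r hr w (hUP₀ hw))
  · intro x hx
    have h1 := hcomU _ (hRnP₀ r⁻¹ (inv_mem hr) x hx) w hw
    have h2 : r⁻¹ * x * r⁻¹⁻¹ * w = w * (r⁻¹ * x * r⁻¹⁻¹) := h1
    calc r * w * r⁻¹ * x = r * (w * (r⁻¹ * x * r⁻¹⁻¹)) * r⁻¹ := by group
      _ = r * (r⁻¹ * x * r⁻¹⁻¹ * w) * r⁻¹ := by rw [h2]
      _ = x * (r * w * r⁻¹) := by group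
  · calc r * w * r⁻¹ * (r * w * r⁻¹) = r * (w * w) * r⁻¹ := by group
      _ = 1 := by rw [hU2 w hw]; group

/-- The main theorem. -/
theorem main (h2 : IsCharacteristicTwoType G) (P : Sylow 2 G) (U : Subgroup G)
    (hUP : U ≤ (P : Subgroup G)) (hUn : (P : Subgroup G) ≤ normalizer (U : Set G))
    (hU4 : IsKleinFour ↥U)
    (hUZ : ¬ IsCyclic ↥((P : Subgroup G) ⊓ centralizer ((P : Subgroup G) : Set G)) →
      U ≤ centralizer ((P : Subgroup G) : Set G))
    (K : Subgroup G) (hK : Odd (Nat.card K)) (hUK : U ≤ normalizer (K : Set G)) :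
    U ≤ centralizer (K : Set G) := by
  classical
  haveI hF : Fact (Nat.Prime 2) := ⟨Nat.prime_two⟩
  haveI := hU4
  have hU2 : ∀ w ∈ U, w * w = 1 := fun w hw =>
    congrArg Subtype.val (IsKleinFour.mul_self (⟨w, hw⟩ : U))
  have hUcomm : ∀ a ∈ U, ∀ b ∈ U, a * b = b * a := by
    intro a ha b hb
    have := (IsKleinFour.isMulCommutative (G := ↥U)).is_comm.comm ⟨a, ha⟩ ⟨b, hb⟩
    exact congrArg Subtype.val this
  have key : ∀ a ∈ U, a ≠ 1 → ∀ c ∈ K ⊓ centralizer ({a} : Set G), ∀ v ∈ U, c * v = v * c := by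
    intro a ha ha1 c hc v hv
    have haa := hU2 a ha
    have hpg : IsPGroup 2 (zpowers a) := by
      rintro ⟨x, hx⟩
      refine ⟨1, Subtype.ext ?_⟩
      show x ^ 2 ^ 1 = 1
      rcases mem_zpowers_involution haa hx with h | h
      · rw [h]; simp
      · rw [h, pow_one, pow_two]; exact haa
    have hne : (zpowers a : Subgroup G) ≠ ⊥ := by
      intro h
      have := mem_zpowers a
      rw [h, Subgroup.mem_bot] at this
      exact ha1 this
    have hchar := h2.2 (zpowers a) hpg hne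
    have hCN : centralizer ({a} : Set G) ≤ normalizer ((zpowers a : Subgroup G) : Set G) := by
      intro x hx
      rw [mem_centralizer_singleton_iff] at hx
      rw [mem_normalizer_iff]
      intro y
      have hconj : ∀ y, y ∈ (zpowers a : Subgroup G) → x * y * x⁻¹ = y := by
        intro y hy
        rcases mem_zpowers_involution haa hy with h | h
        · rw [h]; group
        · rw [h, hx]; group
      constructor
      · intro hy
        show x * y * x⁻¹ ∈ (zpowers a : Subgroup G)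
        rw [hconj y hy]; exact hy
      · intro hy
        have h3 := hconj _ hy
        have h4 : x * y * x⁻¹ = y := by
          have := congrArg (fun t => x⁻¹ * t * x) h3
          simpa [mul_assoc] using this
        rw [h4] at hy
        exact hy
    have hNC : normalizer ((zpowers a : Subgroup G) : Set G) ≤ centralizer ({a} : Set G) := by
      intro x hx
      rw [mem_centralizer_singleton_iff]
      have h1 : x * a * x⁻¹ ∈ zpowers a := (mem_normalizer_iff.1 hx a).1 (mem_zpowers a)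
      rcases mem_zpowers_involution haa h1 with h | h
      · exfalso
        apply ha1
        have : a = x⁻¹ * (x * a * x⁻¹) * x := by group
        rw [this, h]; group
      · exact mul_inv_eq_iff_eq_mul.1 h
    obtain ⟨N, hN⟩ : ∃ N : Subgroup G, N = normalizer ((zpowers a : Subgroup G) : Set G) := ⟨_, rfl⟩
    obtain ⟨R, hR⟩ : ∃ R : Subgroup G, R = (pCore 2 ↥(normalizer ((zpowers a : Subgroup G) : Set G))).map
        (normalizer ((zpowers a : Subgroup G) : Set G)).subtype := ⟨_, rfl⟩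
    have hR2 : IsPGroup 2 R := by
      rw [hR]
      exact (pCore_isPGroup 2 _).map _
    have hRN : R ≤ normalizer ((zpowers a : Subgroup G) : Set G) := by
      rw [hR]
      exact map_subtype_le _
    have hRnorm : ∀ n ∈ normalizer ((zpowers a : Subgroup G) : Set G), ∀ r ∈ R, n * r * n⁻¹ ∈ R := by
      intro n hn r hr
      rw [hR] at hr ⊢
      obtain ⟨r', hr', rfl⟩ := hr
      refine ⟨⟨n, hn⟩ * r' * ⟨n, hn⟩⁻¹, (pCore_normal 2 _).conj_mem r' hr' _, ?_⟩
      simp
    have hRn : centralizer ({a} : Set G) ≤ normalizer (R : Set G) := by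
      intro x hx
      have hxN := hCN hx
      rw [mem_normalizer_iff]
      intro y
      constructor
      · exact fun hy => hRnorm x hxN y hy
      · intro hy
        have := hRnorm x⁻¹ (inv_mem hxN) _ hy
        have h5 : x⁻¹ * (x * y * x⁻¹) * x⁻¹⁻¹ = y := by group
        rwa [h5] at this
    have hUN : U ≤ normalizer ((zpowers a : Subgroup G) : Set G) := by
      intro w hw
      apply hCN
      rw [mem_centralizer_singleton_iff]
      exact hUcomm w hw a ha
    have hcn := core_normalizes P U hUP hUn hU4 hUZ ha ha1 R hR2 hRn (hRN.trans hNC)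
    have hle : U ≤ R := by
      rw [hR]
      apply le_core haa ha1 U hU4 ha hUN hchar
      rw [← hR]
      exact hcn
    have hcK : c ∈ K := hc.1
    have hcN : c ∈ normalizer ((zpowers a : Subgroup G) : Set G) := hCN hc.2
    have hvK := mem_normalizer_iff.1 (hUK hv)
    have h1 : ⁅c, v⁆ ∈ K := by
      have e : ⁅c, v⁆ = c * (v * c⁻¹ * v⁻¹) := by
        simp only [commutatorElement_def]; group
      rw [e]
      exact K.mul_mem hcK ((hvK _).1 (K.inv_mem hcK))
    have h3 : ⁅c, v⁆ ∈ R := by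
      have e : ⁅c, v⁆ = (c * v * c⁻¹) * v⁻¹ := by
        simp only [commutatorElement_def]
      rw [e]
      exact R.mul_mem (hRnorm c hcN v (hle hv)) (R.inv_mem (hle hv))
    have h4 : ⁅c, v⁆ = 1 := by
      obtain ⟨k, hk⟩ := hR2 ⟨_, h3⟩
      have h5 : ⁅c, v⁆ ^ 2 ^ k = 1 := congrArg Subtype.val hk
      have h6 : ⁅c, v⁆ ^ Nat.card K = 1 := by
        have := pow_card_eq_one' (G := K) (x := ⟨_, h1⟩)
        exact congrArg Subtype.val this
      have h7 : ⁅c, v⁆ ^ (Nat.gcd (2 ^ k) (Nat.card K)) = 1 := pow_gcd_eq_one.2 ⟨h5, h6⟩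
      have hcop : Nat.Coprime (2 ^ k) (Nat.card K) :=
        Nat.Coprime.pow_left k (Nat.coprime_two_left.2 hK)
      rwa [hcop, pow_one] at h7
    exact commutatorElement_eq_one_iff_mul_comm.1 h4
  have hcard : Nat.card U = 2 ^ 2 := by rw [IsKleinFour.card_four]; rfl
  have hexp : ∀ x ∈ U, x ^ 2 = 1 := fun x hx => by rw [pow_two]; exact hU2 x hx
  have hgen := Cfsg.Agent.Lib.Hall.generation_elementary (E := U) Nat.prime_two hcard hexp (Nat.card K) K le_rfl hUK
    (Nat.coprime_two_left.2 hK)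
  intro v hv
  rw [mem_centralizer_iff]
  intro k hk
  have hle : K ≤ centralizer ({v} : Set G) := by
    rw [← hgen]
    refine iSup₂_le fun a ha => ?_
    intro c hc
    rw [mem_centralizer_singleton_iff]
    exact key a ha.1 ha.2 c hc v hv
  have := hle hk
  rw [mem_centralizer_singleton_iff] at this
  exact this

end ambient

end Cfsg.Agent.Lib.Techniques.NChar2
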