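import Cfsg.Agent.Lib.Amalgam.QdAffine
import Cfsg.Agent.Lib.KS2.SL2Unip
import Cfsg.Agent.Lib.Techniques.Functor
import Cfsg.Agent.Lib.Techniques.MinFailure
import Cfsg.Agent.Lib.Techniques.Constrained
import Cfsg.Agent.Lib.Techniques.Conj
import Mathlib

/-! Characteristic functors do not control strong fusion in `Qd(p)`. -/

set_option autoImplicit false

namespace Cfsg.Agent.Lib.Techniques.QdF

open Matrix Cfsg Cfsg.Agent.Lib.KS2.SL2 Cfsg.Agent.Lib.Amalgam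
open scoped MatrixGroups

universe u

variable {p : ℕ} [hfp : Fact p.Prime]

/-- The unitriangular elements of `Qd(p)`. -/
def tMk (a b c : ZMod p) : QdE (ZMod p) := mkQd 1 a b 0 1 c (by ring)

@[simp] theorem tMk00 (a b c : ZMod p) : qe (tMk a b c) 0 0 = 1 := rfl
@[simp] theorem tMk01 (a b c : ZMod p) : qe (tMk a b c) 0 1 = a := rfl
@[simp] theorem tMk02 (a b c : ZMod p) : qe (tMk a b c) 0 2 = b := rfl
@[simp] theorem tMk10 (a b c : ZMod p) : qe (tMk a b c) 1 0 = 0 := rfl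
@[simp] theorem tMk11 (a b c : ZMod p) : qe (tMk a b c) 1 1 = 1 := rfl
@[simp] theorem tMk12 (a b c : ZMod p) : qe (tMk a b c) 1 2 = c := rfl

theorem tMk_mul (a b c a' b' c' : ZMod p) : tMk a b c * tMk a' b' c' = tMk (a + a') (b' + a * c' + b) (c + c') := by
  apply qe_ext <;> simp [qe_mul, qe20, qe21, qe22] <;> ring

theorem tMk_one : tMk (0 : ZMod p) 0 0 = 1 := by
  apply qe_ext <;> simp

theorem tMk_inv (a b c : ZMod p) : (tMk a b c)⁻¹ = tMk (-a) (a * c - b) (-c) := by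
  apply inv_eq_of_mul_eq_one_right
  rw [tMk_mul, ← tMk_one]
  congr 1 <;> ring

theorem tMk_inj {a b c a' b' c' : ZMod p} (h : tMk a b c = tMk a' b' c') : a = a' ∧ b = b' ∧ c = c' :=
  ⟨congrArg (fun M => qe M 0 1) h, congrArg (fun M => qe M 0 2) h, congrArg (fun M => qe M 1 2) h⟩

variable (p) in
/-- The standard Sylow subgroup. -/
def T₀ : Subgroup (QdE (ZMod p)) where
  carrier := {M | ∃ a b c, M = tMk a b c}
  mul_mem' := by
    rintro _ _ ⟨a, b, c, rfl⟩ ⟨a', b', c', rfl⟩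
    exact ⟨_, _, _, tMk_mul a b c a' b' c'⟩
  one_mem' := ⟨0, 0, 0, tMk_one.symm⟩
  inv_mem' := by
    rintro _ ⟨a, b, c, rfl⟩
    exact ⟨_, _, _, tMk_inv a b c⟩

theorem tMk_mem (a b c : ZMod p) : tMk a b c ∈ T₀ p := ⟨a, b, c, rfl⟩

theorem card_T₀ : Nat.card (T₀ p) = p ^ 3 := by
  have e : (ZMod p × ZMod p × ZMod p) ≃ T₀ p :=
    { toFun := fun x => ⟨tMk x.1 x.2.1 x.2.2, tMk_mem _ _ _⟩
      invFun := fun M => (qe M.1 0 1, qe M.1 0 2, qe M.1 1 2)
      left_inv := fun x => rfl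
      right_inv := by
        rintro ⟨M, a, b, c, rfl⟩
        rfl }
  rw [← Nat.card_congr e]
  simp [Nat.card_prod, Nat.card_zmod]
  ring

theorem sylow_T₀ : SylowIn p (T₀ p) ⊤ := by
  have hp : p.Prime := hfp.out
  have hc : IsPGroup p (T₀ p) := IsPGroup.of_card card_T₀
  refine ⟨le_top, hc, ?_⟩
  rw [Subgroup.relIndex_top_right]
  have h1 := Subgroup.card_mul_index (T₀ p)
  have h2 : Nat.card (QdE (ZMod p)) = p ^ 2 * (p * (p ^ 2 - 1)) := by
    rw [card_qdOver, card_SL2, ZMod.card]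
    simp [Nat.card_fun, Nat.card_zmod]
  rw [card_T₀, h2] at h1
  have h3 : (T₀ p).index = p ^ 2 - 1 := by
    have : p ^ 3 * (T₀ p).index = p ^ 3 * (p ^ 2 - 1) := by
      rw [h1]
      ring
    exact Nat.eq_of_mul_eq_mul_left (pow_pos hp.pos 3) this
  rw [h3]
  intro hd
  have h4 : p ∣ 1 := by
    have h5 : p ∣ p ^ 2 := dvd_pow_self p two_ne_zero
    have h6 : p ^ 2 - (p ^ 2 - 1) = 1 := by
      have : 1 ≤ p ^ 2 := Nat.one_le_pow _ _ hp.pos
      omega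
    rw [← h6]
    exact Nat.dvd_sub h5 hd
  exact hp.one_lt.ne' (Nat.dvd_one.1 h4)

theorem tMk_pow (a b c : ZMod p) (n : ℕ) : ∃ b' c', tMk a b c ^ n = tMk ((n : ZMod p) * a) b' c' := by
  induction n with
  | zero => exact ⟨0, 0, by simp [tMk_one]⟩
  | succ n ih =>
    obtain ⟨b', c', h⟩ := ih
    refine ⟨b + (n : ZMod p) * a * c + b', c' + c, ?_⟩
    rw [pow_succ, h, tMk_mul]
    congr 1
    push_cast
    ring

theorem tMk_pow_line (b : ZMod p) (n : ℕ) : tMk 0 b 0 ^ n = tMk 0 ((n : ZMod p) * b) 0 := by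
  induction n with
  | zero => simp [tMk_one]
  | succ n ih =>
    rw [pow_succ, ih, tMk_mul]
    congr 1
    · ring
    · push_cast
      ring
    · ring

/-- The swap automorphism of the standard Sylow subgroup. -/
noncomputable def τ : T₀ p ≃* T₀ p :=
  MulEquiv.mk' (
    { toFun := fun M => ⟨tMk (qe M.1 1 2) (qe M.1 0 1 * qe M.1 1 2 - qe M.1 0 2) (qe M.1 0 1), tMk_mem _ _ _⟩
      invFun := fun M => ⟨tMk (qe M.1 1 2) (qe M.1 0 1 * qe M.1 1 2 - qe M.1 0 2) (qe M.1 0 1), tMk_mem _ _ _⟩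
      left_inv := by
        rintro ⟨M, a, b, c, rfl⟩
        apply Subtype.ext
        simp only [tMk01, tMk02, tMk12]
        congr 1
        ring
      right_inv := by
        rintro ⟨M, a, b, c, rfl⟩
        apply Subtype.ext
        simp only [tMk01, tMk02, tMk12]
        congr 1
        ring }) (by
    rintro ⟨M, a, b, c, rfl⟩ ⟨N, a', b', c', rfl⟩
    apply Subtype.ext
    show tMk (qe (tMk a b c * tMk a' b' c') 1 2) (qe (tMk a b c * tMk a' b' c') 0 1 * qe (tMk a b c * tMk a' b' c') 1 2 - qe (tMk a b c * tMk a' b' c') 0 2)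
      (qe (tMk a b c * tMk a' b' c') 0 1) = tMk c (a * c - b) a * tMk c' (a' * c' - b') a'
    simp only [tMk_mul, tMk01, tMk02, tMk12]
    congr 1
    ring)

theorem τ_val (a b c : ZMod p) (h : tMk a b c ∈ T₀ p) :
    (τ ⟨tMk a b c, h⟩ : T₀ p).1 = tMk c (a * c - b) a := rfl

variable (p) in
/-- The center of the standard Sylow subgroup. -/
def Z₀ : Subgroup (QdE (ZMod p)) := T₀ p ⊓ Subgroup.centralizer (T₀ p : Set (QdE (ZMod p)))

theorem mem_Z₀_iff {M : QdE (ZMod p)} : M ∈ Z₀ p ↔ ∃ b, M = tMk 0 b 0 := by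
  constructor
  · rintro ⟨⟨a, b, c, rfl⟩, h2⟩
    have h3 := Subgroup.mem_centralizer_iff.1 h2 _ (tMk_mem 1 0 0)
    have h4 := Subgroup.mem_centralizer_iff.1 h2 _ (tMk_mem 0 0 1)
    rw [tMk_mul, tMk_mul] at h3 h4
    obtain ⟨-, h5, -⟩ := tMk_inj h3
    obtain ⟨-, h6, -⟩ := tMk_inj h4
    have hc : c = 0 := by linear_combination h5
    have ha : a = 0 := by linear_combination -h6
    exact ⟨b, by rw [hc, ha]⟩
  · rintro ⟨b, rfl⟩
    refine ⟨tMk_mem _ _ _, Subgroup.mem_centralizer_iff.2 ?_⟩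
    rintro _ ⟨a', b', c', rfl⟩
    rw [tMk_mul, tMk_mul]
    congr 1 <;> ring

theorem tMk_mem_ker (b c : ZMod p) : tMk 0 b c ∈ (rhoQd (ZMod p)).ker := by
  rw [MonoidHom.mem_ker, rhoQd_eq_one_iff]
  exact ⟨rfl, rfl, rfl, rfl⟩

theorem a_eq_zero_of_mem_ker {a b c : ZMod p} (h : tMk a b c ∈ (rhoQd (ZMod p)).ker) : a = 0 := by
  rw [MonoidHom.mem_ker, rhoQd_eq_one_iff] at h
  exact h.2.1

theorem ker_le_T₀ : (rhoQd (ZMod p)).ker ≤ T₀ p := by
  intro M hM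
  have h1 := eq_trQd_of_rhoQd_eq_one (MonoidHom.mem_ker.1 hM)
  refine ⟨0, qe M 0 2, qe M 1 2, ?_⟩
  rw [h1]
  rfl

/-- A `τ`-invariant nontrivial subgroup has normalizer inside that of the centre. -/
theorem qd_norm {U : Subgroup (QdE (ZMod p))} (hU : U ≤ T₀ p) (hne : U ≠ ⊥)
    (hτ : ∀ (u : QdE (ZMod p)) (hu : u ∈ U), (τ ⟨u, hU hu⟩ : T₀ p).1 ∈ U) :
    Subgroup.normalizer (U : Set (QdE (ZMod p))) ≤ Subgroup.normalizer (Z₀ p : Set (QdE (ZMod p))) := by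
  have hp : p.Prime := hfp.out
  haveI : Fact (1 < p) := ⟨hp.one_lt⟩
  intro x hx
  by_cases hUV : U ≤ (rhoQd (ZMod p)).ker
  · -- `U` is the centre
    have hUZ : U = Z₀ p := by
      have hle : U ≤ Z₀ p := by
        intro u hu
        obtain ⟨a, b, c, rfl⟩ := hU hu
        have ha := a_eq_zero_of_mem_ker (hUV hu)
        have h2 := hUV (hτ _ hu)
        rw [τ_val] at h2
        have hc := a_eq_zero_of_mem_ker h2
        rw [mem_Z₀_iff]
        exact ⟨b, by rw [ha, hc]⟩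
      refine le_antisymm hle ?_
      obtain ⟨⟨u, hu⟩, hu1⟩ := (Subgroup.ne_bot_iff_exists_ne_one.1 hne)
      obtain ⟨b, rfl⟩ := mem_Z₀_iff.1 (hle hu)
      have hb : b ≠ 0 := by
        rintro rfl
        apply hu1
        apply Subtype.ext
        exact tMk_one
      intro z hz
      obtain ⟨b', rfl⟩ := mem_Z₀_iff.1 hz
      have h1 := tMk_pow_line b (b' / b).val
      rw [ZMod.natCast_zmod_val, div_mul_cancel₀ _ hb] at h1
      rw [← h1]
      exact U.pow_mem hu _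
    rw [← hUZ]
    exact hx
  · obtain ⟨u, hu, huV⟩ := SetLike.not_le_iff_exists.1 hUV
    obtain ⟨a, b, c, rfl⟩ := hU hu
    have ha : a ≠ 0 := by
      rintro rfl
      exact huV (tMk_mem_ker _ _)
    have hxT : x ∈ Subgroup.normalizer (T₀ p : Set (QdE (ZMod p))) := by
      apply mem_normalizer_of_conjS_le
      rintro _ ⟨t, ht, rfl⟩
      obtain ⟨a', b', c', rfl⟩ := ht
      obtain ⟨b₁, c₁, h1⟩ := tMk_pow a b c (a' / a).val
      rw [ZMod.natCast_zmod_val, div_mul_cancel₀ _ ha] at h1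
      have hv : (tMk a b c ^ (a' / a).val)⁻¹ * tMk a' b' c' ∈ (rhoQd (ZMod p)).ker := by
        rw [h1, tMk_inv, tMk_mul, neg_add_cancel]
        exact tMk_mem_ker _ _
      have he : tMk a' b' c' = tMk a b c ^ (a' / a).val * ((tMk a b c ^ (a' / a).val)⁻¹ * tMk a' b' c') := by
        group
      have h2 : x * tMk a b c ^ (a' / a).val * x⁻¹ ∈ U :=
        (Subgroup.mem_normalizer_iff.1 hx _).1 (U.pow_mem hu _)
      have h3 : x * ((tMk a b c ^ (a' / a).val)⁻¹ * tMk a' b' c') * x⁻¹ ∈ (rhoQd (ZMod p)).ker :=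
        (inferInstance : (rhoQd (ZMod p)).ker.Normal).conj_mem _ hv x
      show x * tMk a' b' c' * x⁻¹ ∈ T₀ p
      rw [he]
      have e2 : x * (tMk a b c ^ (a' / a).val * ((tMk a b c ^ (a' / a).val)⁻¹ * tMk a' b' c')) * x⁻¹ =
          (x * tMk a b c ^ (a' / a).val * x⁻¹) * (x * ((tMk a b c ^ (a' / a).val)⁻¹ * tMk a' b' c') * x⁻¹) := by group
      rw [e2]
      exact (T₀ p).mul_mem (hU h2) (ker_le_T₀ h3)
    rw [mem_normalizer_iff_conjS] at hxT ⊢
    rw [Z₀, conjS_inf, ← conj_centralizer_subgroup, hxT]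

theorem qd_data' {Γ : Type u} [Group Γ] [Finite Γ] (φ : Γ ≃* QdE (ZMod p)) {T : Subgroup Γ} (hT : SylowIn p T ⊤) :
    ∃ (Z : Subgroup Γ) (v₁ v₂ g : Γ), (∀ T' : Subgroup Γ, SylowIn p T' ⊤ → v₁ ∈ T' ∧ v₂ ∈ T') ∧ v₂ ∈ Z ∧ v₁ ∉ Z ∧
      g * v₁ * g⁻¹ = v₂ ∧ ∀ W : ∀ (Q : Type u) [Group Q], Subgroup Q, IsCharPFunctor.{u} p W →
        Subgroup.normalizer (inducedFunctor W T : Set Γ) ≤ Subgroup.normalizer (Z : Set Γ) := by
  classical
  have hp : p.Prime := hfp.out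
  -- conjugate so that `T` goes to the standard Sylow subgroup
  have hT₁ : SylowIn p (T.map φ.toMonoidHom) (⊤ : Subgroup (QdE (ZMod p))) := by
    refine ⟨le_top, hT.2.1.map _, ?_⟩
    rw [Subgroup.relIndex_top_right, Subgroup.index_map_of_bijective φ.bijective]
    have := hT.2.2
    rwa [Subgroup.relIndex_top_right] at this
  obtain ⟨x, -, hx⟩ := hT₁.exists_conj_eq (sylow_T₀ (p := p))
  set ψ : Γ ≃* QdE (ZMod p) := φ.trans (MulAut.conj x) with hψ
  have hψa : ∀ y, ψ y = x * φ y * x⁻¹ := fun y => rfl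
  have hTψ : T.map ψ.toMonoidHom = T₀ p := by
    rw [← hx]
    ext z
    constructor
    · rintro ⟨t, ht, rfl⟩
      exact ⟨_, ⟨t, ht, rfl⟩, rfl⟩
    · rintro ⟨_, ⟨t, ht, rfl⟩, rfl⟩
      exact ⟨t, ht, rfl⟩
  set w : QdE (ZMod p) := mkQd 0 1 0 (-1) 0 0 (by ring) with hw
  have hwe : w * tMk 0 0 1 * w⁻¹ = tMk 0 1 0 := by
    rw [mul_inv_eq_iff_eq_mul]
    apply qe_ext <;> simp [hw, qe_mul, qe20, qe21, qe22]
  have hker : ∀ T' : Subgroup Γ, SylowIn p T' ⊤ → ∀ M ∈ (rhoQd (ZMod p)).ker, ψ.symm M ∈ T' := by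
    intro T' hT' M hM
    have h1 : ((rhoQd (ZMod p)).ker.comap ψ.toMonoidHom).Normal := inferInstance
    have h2 : IsPGroup p ((rhoQd (ZMod p)).ker.comap ψ.toMonoidHom) :=
      (isPGroup_ker_rhoQd (F := ZMod p) p).comap_of_injective _ ψ.injective
    apply pCore_le_of_sylowIn hT'
    apply Lib.Core.le_pCore h1 h2
    show ψ.toMonoidHom (ψ.symm M) ∈ (rhoQd (ZMod p)).ker
    simpa using hM
  refine ⟨(Z₀ p).comap ψ.toMonoidHom, ψ.symm (tMk 0 0 1), ψ.symm (tMk 0 1 0), ψ.symm w, ?_, ?_, ?_, ?_, ?_⟩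
  · intro T' hT'
    exact ⟨hker T' hT' _ (tMk_mem_ker _ _), hker T' hT' _ (tMk_mem_ker _ _)⟩
  · show ψ (ψ.symm (tMk 0 1 0)) ∈ Z₀ p
    rw [MulEquiv.apply_symm_apply, mem_Z₀_iff]
    exact ⟨1, rfl⟩
  · intro h
    have h1 : ψ (ψ.symm (tMk 0 0 1)) ∈ Z₀ p := h
    rw [MulEquiv.apply_symm_apply, mem_Z₀_iff] at h1
    obtain ⟨b, hb⟩ := h1
    have := (tMk_inj hb).2.2
    exact one_ne_zero this
  · rw [← hwe, map_mul, map_mul, map_inv]
  · intro W hW y hy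
    have hTp : IsPGroup p T := hT.2.1
    have hT0 : T ≠ ⊥ := by
      rintro rfl
      have h1 : T₀ p = ⊥ := by
        rw [← hTψ, Subgroup.map_bot]
      have h2 := card_T₀ (p := p)
      rw [h1, Subgroup.card_bot] at h2
      have : 1 < p ^ 3 := Nat.one_lt_pow (by norm_num) hp.one_lt
      omega
    haveI : Nontrivial T := (Subgroup.nontrivial_iff_ne_bot T).2 hT0
    have hWne : W T ≠ ⊥ := hW.1 T hTp inferInstance
    -- the restricted isomorphism
    let e : T ≃* T₀ p := (ψ.subgroupMap T).trans (MulEquiv.subgroupCongr hTψ)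
    have he : ∀ t : T, ((e t : T₀ p) : QdE (ZMod p)) = ψ t := fun t => rfl
    let θ : T ≃* T := e.trans (τ.trans e.symm)
    have hθ : (W T).map θ.toMonoidHom = W T := hW.2 T T hTp θ
    set U : Subgroup Γ := inducedFunctor W T with hUd
    have hUT : U ≤ T := by
      rintro _ ⟨t, -, rfl⟩
      exact t.2
    set U₀ : Subgroup (QdE (ZMod p)) := U.map ψ.toMonoidHom with hU₀
    have hU₀T : U₀ ≤ T₀ p := by
      rw [← hTψ]
      exact Subgroup.map_mono hUT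
    have hU₀ne : U₀ ≠ ⊥ := by
      intro h
      apply hWne
      have h1 : U = ⊥ := (Subgroup.map_eq_bot_iff_of_injective _ ψ.injective).1 h
      exact (Subgroup.map_eq_bot_iff_of_injective _ T.subtype_injective).1 h1
    have hτ : ∀ (u : QdE (ZMod p)) (hu : u ∈ U₀), (τ ⟨u, hU₀T hu⟩ : T₀ p).1 ∈ U₀ := by
      rintro _ ⟨_, ⟨t, ht, rfl⟩, rfl⟩
      have h1 : θ t ∈ W T := by
        rw [← hθ]
        exact ⟨t, ht, rfl⟩
      refine ⟨(θ t : T), ⟨_, h1, rfl⟩, ?_⟩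
      show ψ (θ t : T) = _
      rw [← he]
      have h2 : e (θ t) = τ (e t) := by
        show e (e.symm (τ (e t))) = τ (e t)
        rw [MulEquiv.apply_symm_apply]
      rw [h2]
      rfl
    have hψy : ψ y ∈ Subgroup.normalizer (U₀ : Set (QdE (ZMod p))) :=
      Subgroup.le_normalizer_map ψ.toMonoidHom ⟨y, hy, rfl⟩
    have h3 := qd_norm hU₀T hU₀ne hτ hψy
    rw [Subgroup.mem_normalizer_iff] at h3 ⊢
    intro z
    have h4 := h3 (ψ z)
    simpa [← map_mul, ← map_inv] using h4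

/-- **Data of the failure of fusion control in `Qd(p)`.** -/
theorem qd_data {Γ : Type u} [Group Γ] [Finite Γ] (φ : Γ ≃* Cfsg.qd p) {T : Subgroup Γ} (hT : SylowIn p T ⊤) :
    ∃ (Z : Subgroup Γ) (v₁ v₂ g : Γ), (∀ T' : Subgroup Γ, SylowIn p T' ⊤ → v₁ ∈ T' ∧ v₂ ∈ T') ∧ v₂ ∈ Z ∧ v₁ ∉ Z ∧
      g * v₁ * g⁻¹ = v₂ ∧ ∀ W : ∀ (Q : Type u) [Group Q], Subgroup Q, IsCharPFunctor.{u} p W →
        Subgroup.normalizer (inducedFunctor W T : Set Γ) ≤ Subgroup.normalizer (Z : Set Γ) :=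
  qd_data' φ hT

end Cfsg.Agent.Lib.Techniques.QdF
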