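import Mathlib
import Cfsg.Agent.Lib.FStar.Transitivity
import Cfsg.Agent.Lib.Geo.PrimSolvable
import Cfsg.Agent.Lib.FStar.Constrained
import Cfsg.Agent.Lib.Techniques.LocalBal

/-!
# A coprime generation lemma: `U ≤ O_{q'}(K)` from commutators with hyperplane centralizers.
-/

set_option autoImplicit false
set_option linter.unusedSectionVars false
set_option linter.unusedVariables false
set_option linter.style.haveILetI false

namespace Cfsg.Agent.Lib.Techniques

open Subgroup Cfsg Cfsg.Agent.Lib.Core Cfsg.Agent.Lib.FStar Cfsg.Agent.Lib.FF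
open scoped commutatorElement

section Char

variable {K₀ : Type*} [Group K₀]

/-- `O_{q',q}` is invariant under automorphisms. -/
theorem pPrimePCore_aut (q : ℕ) [Fact q.Prime] [Finite K₀] (α : K₀ ≃* K₀) {x : K₀} (hx : x ∈ pPrimePCore q K₀) :
    α x ∈ pPrimePCore q K₀ := by
  classical
  have hchar : (pPrimeCore q K₀).map α.toMonoidHom = pPrimeCore q K₀ := map_pPrimeCore_equiv α
  let ab : (K₀ ⧸ pPrimeCore q K₀) ≃* (K₀ ⧸ pPrimeCore q K₀) := QuotientGroup.congr _ _ α hchar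
  have h1 : (pCore q (K₀ ⧸ pPrimeCore q K₀)).map ab.toMonoidHom = pCore q (K₀ ⧸ pPrimeCore q K₀) :=
    map_pCore_equiv ab
  have h2 : QuotientGroup.mk' (pPrimeCore q K₀) x ∈ pCore q (K₀ ⧸ pPrimeCore q K₀) := hx
  have h3 : ab (QuotientGroup.mk' (pPrimeCore q K₀) x) ∈ pCore q (K₀ ⧸ pPrimeCore q K₀) := by
    rw [← h1]
    exact ⟨_, h2, rfl⟩
  exact h3

end Char

section Main

variable {H : Type*} [Group H] [Finite H] {p : ℕ} [hp : Fact p.Prime]

theorem le_core_of_hyper {A K : Subgroup H} (hA : IsElementaryAbelian p A) (hA2 : p ^ 2 ≤ Nat.card A)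
    (hK : ¬ p ∣ Nat.card K) (hKs : Group.IsSolvable K) (hAK : A ≤ normalizer (K : Set H))
    {q : ℕ} [hq : Fact q.Prime] {U : Subgroup H} (hU : U ≤ K) (hUq : ¬ q ∣ Nat.card U)
    (hcomm : ∀ B : Subgroup H, B ≤ A → B.relIndex A = p → ¬ q ∣ Nat.card ↥⁅U, K ⊓ centralizer (B : Set H)⁆) :
    U ≤ (pPrimeCore q K).map K.subtype := by
  classical
  set O₀ := pPrimeCore q K with hO₀
  set π := QuotientGroup.mk' O₀ with hπ
  set Pb := pCore q (K ⧸ O₀) with hPb
  set X₀ : Subgroup K := pPrimePCore q K with hX₀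
  haveI hX₀n : X₀.Normal := (pCore_normal q _).comap _
  set X : Subgroup H := X₀.map K.subtype with hX
  have hXK : X ≤ K := map_subtype_le _
  have hAX : ∀ a ∈ A, ∀ x ∈ X, a * x * a⁻¹ ∈ X := by
    rintro a ha _ ⟨x, hx, rfl⟩
    have h1 := pPrimePCore_aut q (K.normalizerMonoidHom ⟨a, hAK ha⟩) hx
    exact ⟨_, h1, rfl⟩
  have hApg : IsPGroup p A := by
    intro a
    refine ⟨1, ?_⟩
    rw [pow_one]
    exact Subtype.ext (hA.2 _ a.2)
  have hcopK : ∀ Y : Subgroup H, Y ≤ K → (Nat.card A).Coprime (Nat.card Y) := by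
    intro Y hY
    obtain ⟨n, hn⟩ := IsPGroup.iff_card.1 hApg
    rw [hn]
    refine Nat.Coprime.pow_left _ ?_
    rw [Nat.Prime.coprime_iff_not_dvd hp.out]
    intro hd
    exact hK (hd.trans (Subgroup.card_dvd_of_le hY))
  have hAcomm : IsMulCommutative A := hA.1
  haveI : IsMulCommutative A := hAcomm
  have hAsol : Group.IsSolvable A := by
    haveI : Group.IsNilpotent A := IsPGroup.isNilpotent hApg
    infer_instance
  obtain ⟨S, hS, hSA⟩ := exists_invariant_sylow hAX (hcopK X hXK) (Or.inl hAsol) q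
  have hSK : S ≤ K := hS.le.trans hXK
  have hSgen : S ≤ hyperGen p A S :=
    pgroup_le_hyperGen hA hS.isPGroup
      (((Nat.Prime.coprime_iff_not_dvd hp.out).2 (fun hd => hK (hd.trans (Subgroup.card_dvd_of_le hSK)))).symm) hSA
  -- the image of `S` is `O_q`
  set S₀ : Subgroup K := S.subgroupOf K with hS₀
  have hS₀X₀ : S₀ ≤ X₀ := by
    intro s hs
    obtain ⟨x, hx, hxs⟩ := hS.le (Subgroup.mem_subgroupOf.1 hs)
    have : x = s := Subtype.ext hxs
    rwa [← this]
  have hX₀map : X₀.map π = Pb := by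
    rw [hX₀]
    exact Subgroup.map_comap_eq_self_of_surjective (QuotientGroup.mk'_surjective O₀) _
  have hO₀X₀ : O₀ ≤ X₀ := by
    intro x hx
    show π x ∈ Pb
    have h : π x = 1 := (QuotientGroup.eq_one_iff x).2 hx
    rw [h]
    exact one_mem _
  have hmapS : Pb ≤ S₀.map π := by
    have h1 : (S₀.map π).relIndex (X₀.map π) = (S₀ ⊔ π.ker).relIndex (X₀ ⊔ π.ker) :=
      Subgroup.relIndex_map_map _ _ _
    have hker : π.ker = O₀ := QuotientGroup.ker_mk' O₀
    have h2 : X₀ ⊔ π.ker = X₀ := by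
      rw [hker]
      exact sup_eq_left.2 hO₀X₀
    have h3 : (S₀ ⊔ π.ker).relIndex X₀ ∣ S₀.relIndex X₀ := by
      have h4 : S₀ ⊔ π.ker ≤ X₀ := sup_le hS₀X₀ (by rw [hker]; exact hO₀X₀)
      rw [← Subgroup.relIndex_mul_relIndex S₀ (S₀ ⊔ π.ker) X₀ le_sup_left h4]
      exact dvd_mul_left _ _
    have h5 : S₀.relIndex X₀ = S.relIndex X := by
      have h6 : S = S₀.map K.subtype := (Subgroup.map_subgroupOf_eq_of_le hSK).symm
      rw [h6, hX, Subgroup.relIndex_map_map_of_injective _ _ K.subtype_injective]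
    have h6 : ¬ q ∣ (S₀.map π).relIndex Pb := by
      rw [← hX₀map, h1, h2]
      intro hd
      apply hS.not_dvd
      rw [← h5]
      exact hd.trans h3
    have h7 : IsPGroup q Pb := pCore_isPGroup q _
    obtain ⟨k, hk⟩ := IsPGroup.index h7 ((S₀.map π).subgroupOf Pb)
    have h8 : (S₀.map π).relIndex Pb = q ^ k := hk
    rcases k with _ | k
    · rw [pow_zero] at h8
      exact Subgroup.relIndex_eq_one.1 h8
    · exfalso
      apply h6
      rw [h8, pow_succ]
      exact dvd_mul_left _ _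
  -- the key commuting statement
  intro u huU
  have huK := hU huU
  set u₀ : K := ⟨u, huK⟩ with hu₀
  have hcommS : ∀ s ∈ S₀, π u₀ * π s = π s * π u₀ := by
    set C₁ : Subgroup H := ((centralizer ({π u₀} : Set (K ⧸ O₀))).comap π).map K.subtype with hC₁
    have hle : hyperGen p A S ≤ C₁ := by
      refine iSup_le ?_
      rintro ⟨B, hBA, hBi⟩
      obtain ⟨B₁, hB₁A, hB₁i, hB₁C⟩ : ∃ B₁ : Subgroup H, B₁ ≤ A ∧ B₁.relIndex A = p ∧
          centralizer (B : Set H) ≤ centralizer (B₁ : Set H) := by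
        have h1 : B.relIndex A ∣ Nat.card A := Subgroup.relIndex_dvd_card B A
        obtain ⟨n, hn⟩ := IsPGroup.iff_card.1 hApg
        rw [hn] at h1
        obtain ⟨m, _, hm⟩ := (Nat.dvd_prime_pow hp.out).1 h1
        rcases m with _ | m
        · -- `B = A`
          have hA1 : A ≠ ⊥ := by
            intro h
            rw [h] at hA2
            simp at hA2
            have := hp.out.one_lt
            nlinarith
          obtain ⟨B₁, hB₁, hB₁i⟩ := exists_relIndex_eq_prime hApg hA1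
          refine ⟨B₁, hB₁, hB₁i, ?_⟩
          apply Subgroup.centralizer_le
          have h2 : A ≤ B := Subgroup.relIndex_eq_one.1 (by simpa using hm)
          exact (hB₁.trans h2)
        · refine ⟨B, hBA, ?_, le_rfl⟩
          have h2 : B.relIndex A ≠ 0 := by
            rw [hm]
            exact pow_ne_zero _ hp.out.ne_zero
          have h3 : p ^ (m + 1) ≤ p := hm ▸ hBi
          have h4 : m = 0 := by
            by_contra hne
            have h5 : p ^ 2 ≤ p ^ (m + 1) := Nat.pow_le_pow_right hp.out.pos (by omega)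
            have h6 := hp.out.one_lt
            nlinarith
          rw [hm, h4, pow_one]
      rintro s ⟨hsS, hsB⟩
      have hsK := hSK hsS
      have h1 : ⁅u, s⁆ ∈ ⁅U, K ⊓ centralizer (B₁ : Set H)⁆ :=
        Subgroup.commutator_mem_commutator huU (mem_inf.2 ⟨hsK, hB₁C hsB⟩)
      have h2 := hcomm B₁ hB₁A hB₁i
      have h3 : (orderOf ⁅u, s⁆).Coprime q := by
        exact orderOf_coprime_of_mem (((Nat.Prime.coprime_iff_not_dvd hq.out).2 h2).symm) h1
      set s₀ : K := ⟨s, hsK⟩ with hs₀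
      have hs₀X : s₀ ∈ X₀ := hS₀X₀ (Subgroup.mem_subgroupOf.2 hsS)
      have h4 : u₀ * s₀ * u₀⁻¹ * s₀⁻¹ ∈ X₀ :=
        mul_mem (hX₀n.conj_mem s₀ hs₀X u₀) (inv_mem hs₀X)
      have h5 : π (u₀ * s₀ * u₀⁻¹ * s₀⁻¹) ∈ Pb := h4
      obtain ⟨k, hk⟩ := (pCore_isPGroup q (K ⧸ O₀)) ⟨_, h5⟩
      have h6 : (π (u₀ * s₀ * u₀⁻¹ * s₀⁻¹)) ^ q ^ k = 1 := congrArg Subtype.val hk
      have h7 : (π (u₀ * s₀ * u₀⁻¹ * s₀⁻¹)) ^ orderOf ⁅u, s⁆ = 1 := by
        rw [← map_pow]
        have h8 : (u₀ * s₀ * u₀⁻¹ * s₀⁻¹) ^ orderOf ⁅u, s⁆ = 1 := by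
          apply Subtype.ext
          show (u * s * u⁻¹ * s⁻¹) ^ orderOf ⁅u, s⁆ = 1
          have h9 := pow_orderOf_eq_one ⁅u, s⁆
          rwa [commutatorElement_def] at h9
        rw [h8, map_one]
      have h8 := eq_one_of_pow_of_coprime h6 h7 h3
      have h9 : π u₀ * π s₀ = π s₀ * π u₀ := by
        rw [map_mul, map_mul, map_mul, map_inv, map_inv] at h8
        calc π u₀ * π s₀ = (π u₀ * π s₀ * (π u₀)⁻¹ * (π s₀)⁻¹) * (π s₀ * π u₀) := by group
          _ = π s₀ * π u₀ := by rw [h8, one_mul]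
      refine ⟨s₀, ?_, rfl⟩
      show π s₀ ∈ centralizer ({π u₀} : Set (K ⧸ O₀))
      rw [mem_centralizer_singleton_iff]
      exact h9.symm
    intro s hs
    have h1 := hle (hSgen (Subgroup.mem_subgroupOf.1 hs))
    obtain ⟨y, hy, hys⟩ := h1
    have h2 : y = s := Subtype.ext hys
    have hy' : π y ∈ centralizer ({π u₀} : Set (K ⧸ O₀)) := hy
    rw [mem_centralizer_singleton_iff, h2] at hy'
    exact hy'.symm
  -- `π u₀` centralizes `O_q`
  have hpot : π u₀ ∈ centralizer (Pb : Set (K ⧸ O₀)) := by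
    rw [mem_centralizer_iff]
    intro y hy
    obtain ⟨s, hs, rfl⟩ := hmapS hy
    exact (hcommS s hs).symm
  haveI : Group.IsSolvable (K ⧸ O₀) := inferInstance
  have hbot : pPrimeCore q (K ⧸ O₀) = ⊥ := pPrimeCore_quotient_eq_bot
  have hF : fittingSubgroup (K ⧸ O₀) = Pb := fitting_eq_pCore_of_pPrimeCore_bot hbot
  have hmemP : π u₀ ∈ Pb := by
    have h1 := Cfsg.Agent.Lib.Geo.centralizer_fitting_le_of_solvable (G := K ⧸ O₀)
    rw [hF] at h1
    exact h1 hpot
  obtain ⟨k, hk⟩ := (pCore_isPGroup q (K ⧸ O₀)) ⟨_, hmemP⟩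
  have h6 : (π u₀) ^ q ^ k = 1 := congrArg Subtype.val hk
  have h3 : (orderOf u).Coprime q :=
    orderOf_coprime_of_mem (((Nat.Prime.coprime_iff_not_dvd hq.out).2 hUq).symm) huU
  have h7 : (π u₀) ^ orderOf u = 1 := by
    rw [← map_pow]
    have h8 : u₀ ^ orderOf u = 1 := Subtype.ext (pow_orderOf_eq_one u)
    rw [h8, map_one]
  have h8 := eq_one_of_pow_of_coprime h6 h7 h3
  refine ⟨u₀, (QuotientGroup.eq_one_iff _).1 h8, rfl⟩

end Main

end Cfsg.Agent.Lib.Techniques
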