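import Cfsg.Agent.Lib.Techniques.StrongMain
import Cfsg.Agent.Lib.FrobThm.Replacement
import Mathlib

/-! Factorizations in constrained sections and control of strong fusion by a normal closure. -/

set_option autoImplicit false
set_option linter.style.haveILetI false

namespace Cfsg.Agent.Lib.Techniques

open Cfsg
open Cfsg.Agent.Lib.FrobThm

universe u

section Lift

variable {G : Type*} [Group G] [Finite G] {p : ℕ} [hp : Fact p.Prime]

/-- Lifting a normalizer through a quotient by a normal `p'`-subgroup. -/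
theorem lift_normalizer_of_coprime {X : Type*} [Group X] [Finite X] {N V : Subgroup G} [hNn : N.Normal]
    (hNc : (Nat.card N).Coprime p) (π : G →* X) (hker : π.ker = N) (hVp : IsPGroup p V) {x₀ : G}
    (hxN : π x₀ ∈ Subgroup.normalizer ((V.map π : Subgroup X) : Set X)) :
    ∃ x₁ : G, π x₁ = π x₀ ∧ x₁ ∈ Subgroup.normalizer (V : Set G) := by
  classical
  have hinjg : ∀ {R : Subgroup G}, IsPGroup p R → Set.InjOn π (R : Set G) := by
    intro R hR a ha b hb hab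
    have h1 : a⁻¹ * b ∈ N := by
      rw [← hker, MonoidHom.mem_ker, map_mul, map_inv, hab]
      simp
    have h2 : a⁻¹ * b ∈ R := R.mul_mem (R.inv_mem ha) hb
    have h3 := eq_one_of_mem_isPGroup_of_mem_coprime hR hNc h2 h1
    exact eq_of_inv_mul_eq_one h3
  have hpi : ∀ {a b : G}, π a = π b → a⁻¹ * b ∈ N := by
    intro a b e
    rw [← hker, MonoidHom.mem_ker, map_mul, map_inv, e, inv_mul_cancel]
  set J : Subgroup G := V ⊔ N with hJ
  have hJs : SylowIn p V J := by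
    obtain ⟨T, hVT, hT⟩ := exists_sylowIn_ge (p := p) (le_sup_left : V ≤ J) hVp
    have hTJ : T.map π ≤ V.map π := by
      rintro _ ⟨t, ht, rfl⟩
      obtain ⟨v, hv, n, hn, e⟩ := Subgroup.mem_sup_of_normal_right.1 (hT.1 ht)
      refine ⟨v, hv, ?_⟩
      rw [← e, map_mul]
      have : π n = 1 := by
        rw [← MonoidHom.mem_ker, hker]
        exact hn
      rw [this, mul_one]
    have hcard : Nat.card T ≤ Nat.card V := by
      have h1 : Nat.card (T.map π) = Nat.card T := card_map_eq_of_injOn π (hinjg hT.2.1)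
      have h2 : Nat.card (V.map π) ≤ Nat.card V := Nat.le_of_dvd Nat.card_pos (Subgroup.card_map_dvd (H := V) π)
      have h3 : Nat.card (T.map π) ≤ Nat.card (V.map π) := Subgroup.card_le_of_le hTJ
      omega
    have hVT' : V = T := Subgroup.eq_of_le_of_card_ge hVT hcard
    rw [hVT']
    exact hT
  have hJc : conjS x₀ J = J := by
    apply mem_normalizer_iff_conjS.1
    apply mem_normalizer_of_conjS_le
    have e1 : conjS x₀ J = conjS x₀ V ⊔ conjS x₀ N := Subgroup.map_sup _ _ _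
    rw [e1, conjS_of_normal x₀ N]
    refine sup_le ?_ le_sup_right
    rintro _ ⟨v, hv, rfl⟩
    have h1 : π (x₀ * v * x₀⁻¹) ∈ V.map π := by
      rw [map_mul, map_mul, map_inv]
      exact (Subgroup.mem_normalizer_iff.1 hxN (π v)).1 ⟨v, hv, rfl⟩
    obtain ⟨v', hv', e⟩ := h1
    have h2 := hpi e
    have e2 : x₀ * v * x₀⁻¹ = v' * (v'⁻¹ * (x₀ * v * x₀⁻¹)) := by group
    show x₀ * v * x₀⁻¹ ∈ J
    rw [e2]
    exact Subgroup.mul_mem _ (Subgroup.mem_sup_left hv') (Subgroup.mem_sup_right h2)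
  obtain ⟨k, hk, hkn⟩ := frattini_in hJs hJc
  obtain ⟨v, hv, n, hn, rfl⟩ := Subgroup.mem_sup_of_normal_right.1 hk
  have hSV : V ≤ Subgroup.normalizer (V : Set G) := Subgroup.le_normalizer
  refine ⟨v * ((v * n)⁻¹ * x₀), ?_, Subgroup.mul_mem _ (hSV hv) hkn⟩
  have hπn : π n = 1 := by
    rw [← MonoidHom.mem_ker, hker]
    exact hn
  rw [map_mul, map_mul, map_inv, map_mul, hπn]
  simp

end Lift

section Family

variable {X : Type u} [Group X] [Finite X] {p : ℕ} [hp : Fact p.Prime]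

/-- A factorization by two normalizers gives family control. -/
theorem family_of_product {W₁ W₂ : ∀ (Q : Type u) [Group Q], Subgroup Q}
    (hW₁ : IsCharPFunctor.{u} p W₁) (hW₂ : IsCharPFunctor.{u} p W₂) (T : Sylow p X)
    (hprod : ∀ x : X, ∃ a ∈ Subgroup.normalizer ((inducedFunctor (G := X) W₁ (T : Subgroup X) : Subgroup X) : Set X),
      ∃ b ∈ Subgroup.normalizer ((inducedFunctor (G := X) W₂ (T : Subgroup X) : Subgroup X) : Set X), x = a * b) :
    FamilyControlsStrongFusionIn p ((fun W => inducedFunctor (G := X) W) '' ({W₁, W₂} : Set (∀ (Q : Type u) [Group Q], Subgroup Q))) ⊤ := by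
  classical
  have hT := sylowIn_top_of_sylow T
  obtain ⟨N₁, hN₁⟩ : ∃ N₁ : Subgroup X, N₁ = Subgroup.normalizer ((inducedFunctor (G := X) W₁ (T : Subgroup X) : Subgroup X) : Set X) := ⟨_, rfl⟩
  obtain ⟨N₂, hN₂⟩ : ∃ N₂ : Subgroup X, N₂ = Subgroup.normalizer ((inducedFunctor (G := X) W₂ (T : Subgroup X) : Subgroup X) : Set X) := ⟨_, rfl⟩
  rw [← hN₁, ← hN₂] at hprod
  have hTN₁ : (T : Subgroup X) ≤ N₁ := by
    rw [hN₁]
    exact le_normW hW₁ T.isPGroup'
  have hTN₂ : (T : Subgroup X) ≤ N₂ := by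
    rw [hN₂]
    exact le_normW hW₂ T.isPGroup'
  have hmem₁ : ∀ x ∈ N₁, x ∈ famN ((fun W => inducedFunctor (G := X) W) '' ({W₁, W₂} : Set (∀ (Q : Type u) [Group Q], Subgroup Q))) ⊤ (T : Subgroup X) := by
    intro x hx
    refine ⟨_, ⟨W₁, Or.inl rfl, rfl⟩, trivial, ?_⟩
    rw [← hN₁]
    exact hx
  have hmem₂ : ∀ x ∈ N₂, x ∈ famN ((fun W => inducedFunctor (G := X) W) '' ({W₁, W₂} : Set (∀ (Q : Type u) [Group Q], Subgroup Q))) ⊤ (T : Subgroup X) := by
    intro x hx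
    refine ⟨_, ⟨W₂, Or.inr rfl, rfl⟩, trivial, ?_⟩
    rw [← hN₂]
    exact hx
  refine familyControls_of_chain hT ?_
  intro A h _ hA hA'
  obtain ⟨n₁, hn₁, n₂, hn₂, rfl⟩ := hprod h
  -- the Sylow subgroup of `N₁ ⊓ N₂`
  have hTM : SylowIn p (T : Subgroup X) (N₁ ⊓ N₂) := hT.of_le (le_inf hTN₁ hTN₂) le_top
  obtain ⟨Q, hQd⟩ : ∃ Q : Subgroup X, Q = Subgroup.closure (lconj n₂ A) := ⟨_, rfl⟩
  have hTN₂A : A ⊆ N₂ := fun a ha => hTN₂ (hA ha)
  have hQle : Q ≤ conjS n₁⁻¹ (T : Subgroup X) := by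
    rw [hQd, Subgroup.closure_le]
    rintro _ ⟨a, ha, rfl⟩
    rw [SetLike.mem_coe, mem_conjS]
    have h1 : (n₁ * n₂) * a * (n₁ * n₂)⁻¹ ∈ (T : Subgroup X) := hA' ⟨a, ha, rfl⟩
    have e : n₁⁻¹⁻¹ * (n₂ * a * n₂⁻¹) * n₁⁻¹ = (n₁ * n₂) * a * (n₁ * n₂)⁻¹ := by group
    rw [e]
    exact h1
  have hQ₁ : Q ≤ N₁ := by
    have h1 := conjS_mono n₁⁻¹ hTN₁
    rw [conjS_eq_of_mem (N₁.inv_mem hn₁)] at h1
    exact hQle.trans h1
  have hQ₂ : Q ≤ N₂ := by
    rw [hQd, Subgroup.closure_le]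
    rintro _ ⟨a, ha, rfl⟩
    exact N₂.mul_mem (N₂.mul_mem hn₂ (hTN₂A ha)) (N₂.inv_mem hn₂)
  have hQp : IsPGroup p Q := (isPGroup_conjS n₁⁻¹ T.isPGroup').to_le hQle
  obtain ⟨m, hm, hmQ⟩ := hTM.exists_conj_le (le_inf hQ₁ hQ₂) hQp
  have hA₁ : lconj (m * n₂) A ⊆ (T : Subgroup X) := by
    rintro _ ⟨a, ha, rfl⟩
    have h1 : n₂ * a * n₂⁻¹ ∈ Q := by
      rw [hQd]
      exact Subgroup.subset_closure ⟨a, ha, rfl⟩
    have h2 := hmQ (conj_mem_conjS (g := m) h1)
    have e : (m * n₂) * a * (m * n₂)⁻¹ = m * (n₂ * a * n₂⁻¹) * m⁻¹ := by group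
    show (m * n₂) * a * (m * n₂)⁻¹ ∈ (T : Subgroup X)
    rw [e]
    exact h2
  have hA₂ : lconj (n₁ * m⁻¹) (lconj (m * n₂) A) ⊆ (T : Subgroup X) := by
    rintro _ ⟨_, ⟨a, ha, rfl⟩, rfl⟩
    have h1 := hA' ⟨a, ha, rfl⟩
    have e : (n₁ * m⁻¹) * ((m * n₂) * a * (m * n₂)⁻¹) * (n₁ * m⁻¹)⁻¹ = (n₁ * n₂) * a * (n₁ * n₂)⁻¹ := by group
    show (n₁ * m⁻¹) * ((m * n₂) * a * (m * n₂)⁻¹) * (n₁ * m⁻¹)⁻¹ ∈ (T : Subgroup X)
    rw [e]
    exact h1
  have hc := FChain.cons hA (hmem₂ _ (N₂.mul_mem hm.2 hn₂))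
    (FChain.single hA₁ hA₂ (hmem₁ _ (N₁.mul_mem hn₁ (N₁.inv_mem hm.1))))
  refine ⟨_, hc, fun a _ => ?_⟩
  group

end Family

section Closure

variable {G : Type u} [Group G] [Finite G] {p : ℕ} [hp : Fact p.Prime]

theorem pPrimeCore_quotient_bot_of_eq {X : Type*} [Group X] [Finite X] (O : Subgroup X) [hO : O.Normal]
    (h : O = pPrimeCore p X) : pPrimeCore p (X ⧸ O) = ⊥ := by
  subst h
  exact Lib.Core.pPrimeCore_quotient_eq_bot

/-- An element of `Ω₁Z(S)` in a normal `p`-subgroup of `X ≥ S`: its `X`-conjugates are conjugates under the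
normalizer of the functor value, provided the constrained sections factorize. -/
theorem conj_in_normalizer_of_fac {W : ∀ (Q : Type u) [Group Q], Subgroup Q} (hW : IsCharPFunctor.{u} p W)
    (S : Sylow p G)
    (hfac : ∀ (K R : Subgroup G) [hR : (R.subgroupOf K).Normal],
      Subgroup.centralizer ((pCore p (↥K ⧸ R.subgroupOf K) : Subgroup (↥K ⧸ R.subgroupOf K)) : Set (↥K ⧸ R.subgroupOf K)) ≤ pCore p (↥K ⧸ R.subgroupOf K) →
      ∀ T : Sylow p (↥K ⧸ R.subgroupOf K), ∀ x : (↥K ⧸ R.subgroupOf K),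
        ∃ a ∈ Subgroup.centralizer ((omegaOne p ((T : Subgroup (↥K ⧸ R.subgroupOf K)) ⊓ Subgroup.centralizer (((T : Subgroup (↥K ⧸ R.subgroupOf K)) : Subgroup (↥K ⧸ R.subgroupOf K)) : Set (↥K ⧸ R.subgroupOf K))) : Subgroup (↥K ⧸ R.subgroupOf K)) : Set (↥K ⧸ R.subgroupOf K)),
        ∃ b ∈ Subgroup.normalizer ((inducedFunctor (G := (↥K ⧸ R.subgroupOf K)) W (T : Subgroup (↥K ⧸ R.subgroupOf K)) : Subgroup (↥K ⧸ R.subgroupOf K)) : Set (↥K ⧸ R.subgroupOf K)), x = a * b)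
    {z : G} (hzS : z ∈ (S : Subgroup G)) (hzc : ∀ s ∈ (S : Subgroup G), s * z = z * s) (hzp : z ^ p = 1) :
    ∀ (n : ℕ) (X P₀ : Subgroup G), Nat.card X = n → (S : Subgroup G) ≤ X → P₀ ≤ X →
      X ≤ Subgroup.normalizer (P₀ : Set G) → IsPGroup p P₀ → z ∈ P₀ →
      ∀ g ∈ X, ∃ m ∈ X ⊓ Subgroup.normalizer ((inducedFunctor (G := G) W (S : Subgroup G) : Subgroup G) : Set G),
        g * z * g⁻¹ = m * z * m⁻¹ := by
  intro n
  induction n using Nat.strong_induction_on with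
  | _ n ih =>
    intro X P₀ hn hSX hP₀X hXN hP₀ hzP g hg
    classical
    obtain ⟨R, hR⟩ : ∃ R : Subgroup G, R = (pPrimeCore p ↥X).map X.subtype := ⟨_, rfl⟩
    have hRO : R.subgroupOf X = pPrimeCore p ↥X := by
      rw [hR]
      exact Subgroup.comap_map_eq_self_of_injective X.subtype_injective _
    haveI hRn : (R.subgroupOf X).Normal := by
      rw [hRO]
      exact Lib.Core.pPrimeCore_normal p _
    have hRc : (Nat.card (R.subgroupOf X)).Coprime p := by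
      rw [hRO]
      exact Lib.Core.pPrimeCore_coprime p _
    have hObot : pPrimeCore p (↥X ⧸ R.subgroupOf X) = ⊥ := pPrimeCore_quotient_bot_of_eq _ hRO
    let π : ↥X →* ↥X ⧸ R.subgroupOf X := QuotientGroup.mk' _
    have hπs : Function.Surjective π := QuotientGroup.mk'_surjective _
    have hπk : π.ker = R.subgroupOf X := QuotientGroup.ker_mk' _
    have hπ1 : ∀ x, π x = 1 ↔ x ∈ R.subgroupOf X := fun x => QuotientGroup.eq_one_iff x
    -- the `p`-subgroup in `X`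
    obtain ⟨P', hP'⟩ : ∃ P' : Subgroup ↥X, P' = P₀.subgroupOf X := ⟨_, rfl⟩
    have hP'p : IsPGroup p P' := by
      rw [hP']
      exact isPGroup_subgroupOf hP₀X hP₀
    have hP'mem : ∀ x : ↥X, x ∈ P' ↔ (x : G) ∈ P₀ := by
      intro x
      rw [hP']
      exact Subgroup.mem_subgroupOf
    haveI hP'n : P'.Normal := by
      constructor
      intro x hx y
      rw [hP'mem] at hx ⊢
      exact (Subgroup.mem_normalizer_iff.1 (hXN y.2) x).1 hx
    have hcomm1 : ∀ (x w : ↥X), w ∈ P' → π (x * w * x⁻¹) = π w → x * w * x⁻¹ = w := by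
      intro x w hw he
      have h1 : x * w * x⁻¹ * w⁻¹ ∈ R.subgroupOf X := by
        rw [← hπ1, map_mul, he, map_inv, mul_inv_cancel]
      have h2 : x * w * x⁻¹ * w⁻¹ ∈ P' := P'.mul_mem (hP'n.conj_mem w hw x) (P'.inv_mem hw)
      have h3 := eq_one_of_mem_isPGroup_of_mem_coprime hP'p hRc h2 h1
      exact mul_inv_eq_one.1 h3
    have hzX : z ∈ X := hSX hzS
    have hzP' : (⟨z, hzX⟩ : ↥X) ∈ P' := (hP'mem _).2 hzP
    have hVX : (inducedFunctor (G := ↥X) W ((S : Subgroup G).subgroupOf X)).map X.subtype = inducedFunctor (G := G) W (S : Subgroup G) := by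
      have h1 := map_inducedFunctor hW X.subtype (isPGroup_subgroupOf hSX S.isPGroup') (X.subtype_injective.injOn)
      rw [h1, Subgroup.map_subgroupOf_eq_of_le hSX]
    by_cases hcon : Subgroup.centralizer ((pCore p (↥X ⧸ R.subgroupOf X) : Subgroup (↥X ⧸ R.subgroupOf X)) : Set (↥X ⧸ R.subgroupOf X)) ≤ pCore p (↥X ⧸ R.subgroupOf X)
    · -- the constrained case
      let S' : Sylow p ↥X := S.subtype hSX
      let T : Sylow p (↥X ⧸ R.subgroupOf X) := S'.mapSurjective hπs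
      have hTd : (T : Subgroup (↥X ⧸ R.subgroupOf X)) = ((S : Subgroup G).subgroupOf X).map π := rfl
      have hinj : Set.InjOn π (((S : Subgroup G).subgroupOf X : Subgroup ↥X) : Set ↥X) := by
        intro a ha b hb hab
        have h1 : a⁻¹ * b ∈ R.subgroupOf X := by
          rw [← hπ1, map_mul, map_inv, hab]
          simp
        have h2 : a⁻¹ * b ∈ (S : Subgroup G).subgroupOf X := Subgroup.mul_mem _ (Subgroup.inv_mem _ ha) hb
        exact eq_of_inv_mul_eq_one (eq_one_of_mem_isPGroup_of_mem_coprime (isPGroup_subgroupOf hSX S.isPGroup') hRc h2 h1)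
      have hVT : (inducedFunctor (G := ↥X) W ((S : Subgroup G).subgroupOf X)).map π = inducedFunctor W (T : Subgroup (↥X ⧸ R.subgroupOf X)) :=
        map_inducedFunctor hW π (isPGroup_subgroupOf hSX S.isPGroup') hinj
      obtain ⟨a, ha, b, hb, e⟩ := hfac X R hcon T (π (⟨g, hg⟩ : ↥X)⁻¹)
      obtain ⟨b₀, rfl⟩ := hπs b
      rw [← hVT] at hb
      have hVp : IsPGroup p (inducedFunctor (G := ↥X) W ((S : Subgroup G).subgroupOf X)) :=
        (isPGroup_subgroupOf hSX S.isPGroup').to_le ((isConjugacyFunctor_induced hW) _ (isPGroup_subgroupOf hSX S.isPGroup')).1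
      obtain ⟨b₁, hb₁, hb₁N⟩ := lift_normalizer_of_coprime hRc π hπk hVp hb
      obtain ⟨g', hg'⟩ : ∃ g' : ↥X, g' = ⟨g, hg⟩ := ⟨_, rfl⟩
      rw [← hg'] at e
      -- the element centralizing `z`
      have ha₁ : π (g'⁻¹ * b₁⁻¹) = a := by
        rw [map_mul, map_inv, map_inv, hb₁]
        rw [map_inv] at e
        rw [e]
        group
      have hzm : (π ⟨z, hzX⟩) ∈ omegaOne p ((T : Subgroup (↥X ⧸ R.subgroupOf X)) ⊓ Subgroup.centralizer (((T : Subgroup (↥X ⧸ R.subgroupOf X)) : Subgroup (↥X ⧸ R.subgroupOf X)) : Set (↥X ⧸ R.subgroupOf X))) := by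
        refine Subgroup.subset_closure ⟨⟨?_, ?_⟩, ?_⟩
        · rw [hTd]
          exact ⟨⟨z, hzX⟩, hzS, rfl⟩
        · refine Subgroup.mem_centralizer_iff.2 ?_
          intro t ht
          have ht' : t ∈ ((S : Subgroup G).subgroupOf X).map π := ht
          obtain ⟨s, hs, rfl⟩ := ht'
          rw [← map_mul, ← map_mul]
          congr 1
          exact Subtype.ext (hzc s hs)
        · rw [← map_pow]
          have : (⟨z, hzX⟩ : ↥X) ^ p = 1 := Subtype.ext hzp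
          rw [this, map_one]
      have hcomm2 : π ((g'⁻¹ * b₁⁻¹)⁻¹ * ⟨z, hzX⟩ * ((g'⁻¹ * b₁⁻¹)⁻¹)⁻¹) = π ⟨z, hzX⟩ := by
        rw [map_mul, map_mul, map_inv, inv_inv, ha₁]
        have h1 := Subgroup.mem_centralizer_iff.1 ha _ hzm
        rw [mul_assoc, h1, ← mul_assoc, inv_mul_cancel, one_mul]
      have hcomm3 := hcomm1 _ _ hzP' hcomm2
      refine ⟨(b₁⁻¹ : ↥X), ⟨Subtype.coe_prop _, ?_⟩, ?_⟩
      · rw [← hVX]
        apply mem_normalizer_of_forall_conj_mem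
        rintro _ ⟨v, hv, rfl⟩
        refine ⟨b₁⁻¹ * v * (b₁⁻¹)⁻¹, ?_, rfl⟩
        exact (Subgroup.mem_normalizer_iff.1 (Subgroup.inv_mem _ hb₁N) v).1 hv
      · have e1 : g = ((g' : ↥X) : G) := by rw [hg']
        have hcomm4 : (((g'⁻¹ * b₁⁻¹)⁻¹ * ⟨z, hzX⟩ * ((g'⁻¹ * b₁⁻¹)⁻¹)⁻¹ : ↥X) : G) = z := congrArg Subtype.val hcomm3
        have hcomm5 : ((b₁ : ↥X) : G) * ((g' : ↥X) : G) * z * ((g' : ↥X) : G)⁻¹ * ((b₁ : ↥X) : G)⁻¹ = z := by
          have e2 : ((b₁ : ↥X) : G) * ((g' : ↥X) : G) * z * ((g' : ↥X) : G)⁻¹ * ((b₁ : ↥X) : G)⁻¹ = (((g'⁻¹ * b₁⁻¹)⁻¹ * ⟨z, hzX⟩ * ((g'⁻¹ * b₁⁻¹)⁻¹)⁻¹ : ↥X) : G) := by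
            simp only [Subgroup.coe_mul, Subgroup.coe_inv, mul_inv_rev, inv_inv]
            group
          rw [e2, hcomm4]
        rw [e1]
        calc ((g' : ↥X) : G) * z * ((g' : ↥X) : G)⁻¹ = ((b₁ : ↥X) : G)⁻¹ * (((b₁ : ↥X) : G) * ((g' : ↥X) : G) * z * ((g' : ↥X) : G)⁻¹ * ((b₁ : ↥X) : G)⁻¹) * ((b₁ : ↥X) : G) := by group
          _ = ((b₁ : ↥X) : G)⁻¹ * z * ((b₁ : ↥X) : G) := by rw [hcomm5]
          _ = _ := by simp
    · -- the non-constrained case
      obtain ⟨T, hTd⟩ : ∃ T : Subgroup (↥X ⧸ R.subgroupOf X), T = ((S : Subgroup G).subgroupOf X).map π := ⟨_, rfl⟩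
      have hTs : SylowIn p T ⊤ := by
        rw [hTd]
        exact sylowIn_top_of_sylow ((S.subtype hSX).mapSurjective hπs)
      obtain ⟨D, hDd⟩ : ∃ D : Subgroup (↥X ⧸ R.subgroupOf X), D = pCore p (↥X ⧸ R.subgroupOf X) := ⟨_, rfl⟩
      rw [← hDd] at hcon
      haveI hDn : D.Normal := by
        rw [hDd]
        exact Lib.Core.pCore_normal p _
      obtain ⟨C, hCd⟩ : ∃ C : Subgroup (↥X ⧸ R.subgroupOf X), C = Subgroup.centralizer (D : Set (↥X ⧸ R.subgroupOf X)) := ⟨_, rfl⟩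
      haveI hCn : C.Normal := by
        rw [hCd]
        exact Subgroup.normal_centralizer
      have hnotle : ¬ T ⊓ C ≤ D := by
        intro h1
        apply hcon
        have h2 := centralizer_le_of_inf_le hTs hObot (by
          rw [← hDd, ← hCd]
          exact h1)
        rw [← hDd] at h2
        exact h2
      have hsyl : SylowIn p (T ⊓ C) C := hTs.inf_of_normal le_top (by
        rw [Subgroup.normalizer_eq_top_iff.2 hCn])
      have hT₂p : IsPGroup p ↥(T ⊓ C) := hsyl.2.1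
      obtain ⟨Nn, hNn⟩ : ∃ Nn : Subgroup (↥X ⧸ R.subgroupOf X), Nn = Subgroup.normalizer ((T ⊓ C : Subgroup (↥X ⧸ R.subgroupOf X)) : Set (↥X ⧸ R.subgroupOf X)) := ⟨_, rfl⟩
      have hNntop : Nn ≠ ⊤ := by
        intro h1
        rw [hNn, Subgroup.normalizer_eq_top_iff] at h1
        apply hnotle
        rw [hDd]
        exact Lib.Core.le_pCore h1 hT₂p
      have hTNn : T ≤ Nn := by
        intro t ht
        rw [hNn]
        apply mem_normalizer_of_forall_conj_mem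
        rintro x ⟨hx, hx'⟩
        exact ⟨T.mul_mem (T.mul_mem ht hx) (T.inv_mem ht), hCn.conj_mem x hx' t⟩
      have hDT : D ≤ T := by
        rw [hDd, hTd]
        exact Lib.Core.pCore_le_sylow ((S.subtype hSX).mapSurjective hπs)
      -- the image of `P₀`
      have hP'D : P'.map π ≤ D := by
        rw [hDd]
        exact Lib.Core.le_pCore (hP'n.map π hπs) (hP'p.map π)
      obtain ⟨Y, hYd⟩ : ∃ Y : Subgroup G, Y = (Nn.comap π).map X.subtype := ⟨_, rfl⟩
      have hYmem : ∀ x : ↥X, (x : G) ∈ Y ↔ π x ∈ Nn := by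
        intro x
        rw [hYd]
        constructor
        · rintro ⟨y, hy, e⟩
          have e2 : y = x := Subtype.ext e
          rw [← e2]
          exact hy
        · intro h1
          exact ⟨x, h1, rfl⟩
      have hYX : Y ≤ X := by
        rw [hYd]
        exact Subgroup.map_subtype_le _
      have hYne : Y ≠ X := by
        intro he
        apply hNntop
        rw [eq_top_iff]
        intro t _
        obtain ⟨x, rfl⟩ := hπs t
        have h1 : (x : G) ∈ Y := by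
          rw [he]
          exact x.2
        exact (hYmem x).1 h1
      have hYlt : Nat.card Y < n := by
        rw [← hn]
        refine lt_of_le_of_ne (Subgroup.card_le_of_le hYX) fun he => hYne ?_
        exact Subgroup.eq_of_le_of_card_ge hYX he.ge
      have hSY : (S : Subgroup G) ≤ Y := by
        intro s hs
        have h1 : (s : G) = ((⟨s, hSX hs⟩ : ↥X) : G) := rfl
        rw [h1, hYmem]
        apply hTNn
        rw [hTd]
        exact ⟨⟨s, hSX hs⟩, hs, rfl⟩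
      have hP₀Y : P₀ ≤ Y := by
        intro w hw
        have h1 : (w : G) = ((⟨w, hP₀X hw⟩ : ↥X) : G) := rfl
        rw [h1, hYmem]
        apply hTNn
        apply hDT
        apply hP'D
        exact ⟨⟨w, hP₀X hw⟩, (hP'mem _).2 hw, rfl⟩
      -- Frattini
      have hy : conjS (π ⟨g, hg⟩) C = C := by
        apply mem_normalizer_iff_conjS.1
        rw [Subgroup.normalizer_eq_top_iff.2 hCn]
        trivial
      obtain ⟨k, hk, hkn⟩ := frattini_in hsyl hy
      obtain ⟨k₀, rfl⟩ := hπs k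
      obtain ⟨n', hn'⟩ : ∃ n' : ↥X, n' = k₀⁻¹ * ⟨g, hg⟩ := ⟨_, rfl⟩
      have hn'N : π n' ∈ Nn := by
        rw [hNn, hn', map_mul, map_inv]
        exact hkn
      obtain ⟨m, hm, hme⟩ := ih _ hYlt Y P₀ rfl hSY hP₀Y (hYX.trans hXN) hP₀ hzP (n' : G) ((hYmem n').2 hn'N)
      refine ⟨m, ⟨hYX hm.1, hm.2⟩, ?_⟩
      rw [← hme]
      -- `k₀` centralizes the conjugate
      obtain ⟨w, hw⟩ : ∃ w : ↥X, w = n' * ⟨z, hzX⟩ * n'⁻¹ := ⟨_, rfl⟩
      have hwP : w ∈ P' := by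
        rw [hw]
        exact hP'n.conj_mem _ hzP' n'
      have hk₀w : k₀ * w * k₀⁻¹ = w := by
        apply hcomm1 _ _ hwP
        rw [map_mul, map_mul, map_inv]
        have h1 : π w ∈ D := hP'D ⟨w, hwP, rfl⟩
        rw [hCd] at hk
        have h2 := Subgroup.mem_centralizer_iff.1 hk _ h1
        rw [← h2]
        group
      have e1 : g = ((k₀ : ↥X) : G) * ((n' : ↥X) : G) := by
        rw [hn']
        simp
      have e2 : ((w : ↥X) : G) = ((n' : ↥X) : G) * z * ((n' : ↥X) : G)⁻¹ := by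
        rw [hw]
        rfl
      have e3 : ((k₀ : ↥X) : G) * ((w : ↥X) : G) * ((k₀ : ↥X) : G)⁻¹ = ((w : ↥X) : G) := congrArg Subtype.val hk₀w
      rw [e2] at e3
      rw [e1]
      calc ((k₀ : ↥X) : G) * ((n' : ↥X) : G) * z * (((k₀ : ↥X) : G) * ((n' : ↥X) : G))⁻¹
          = ((k₀ : ↥X) : G) * (((n' : ↥X) : G) * z * ((n' : ↥X) : G)⁻¹) * ((k₀ : ↥X) : G)⁻¹ := by group
        _ = _ := e3

end Closure

end Cfsg.Agent.Lib.Techniques
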